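import Cfsg.Agent.SignalizersComponents.BaerTrick

/-!
# The trace of a group of automorphisms on a group of odd order and class at most two

`N` is a finite group of odd order and class at most two and the finite group `S` acts on it. The
product over `S` in the commutative group given by the Baer trick is a map `P : N → N`.
-/

set_option autoImplicit false

open scoped commutatorElement

namespace Cfsg.Agent.H596.BaerTrace

open Cfsg.Agent.SignalizersComponents.BaerTrick

universe u

theorem exists_copy {N : Type u} [Group N] (hc : ∀ x y : N, ⁅x, y⁆ ∈ Subgroup.center N) {h : ℕ}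
    (hh : ∀ x : N, x ^ (2 * h) = x) :
    ∃ (V : Type u) (_ : CommGroup V) (e : N ≃ V), ∀ x y, e (bmul h x y) = e x * e y := by
  let inst : CommGroup (Copy N) := baerGroup hc hh
  exact ⟨Copy N, inst, (Equiv.refl N : N ≃ Copy N), fun x y => rfl⟩

variable {N : Type*} [Group N]

theorem mul_eq_bmul (hc : ∀ x y : N, ⁅x, y⁆ ∈ Subgroup.center N) (h : ℕ) (x y : N) :
    x * y = bmul h (bmul h x y) (⁅x, y⁆ ^ h) := by
  have c1 : ⁅x, y⁆ ^ h ∈ Subgroup.center N := Subgroup.pow_mem _ (hc _ _) _
  rw [bmul_def, bmul_def, comm_of_mem_center_left c1, one_pow, mul_one, mul_assoc (x * y),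
    ← commutatorElement_inv x y, inv_pow, inv_mul_cancel, mul_one]

theorem bmul_of_commute (h : ℕ) {x y : N} (hxy : Commute x y) : bmul h x y = x * y := by
  rw [bmul_def, (commutatorElement_eq_one_iff_mul_comm).mpr hxy.symm.eq, one_pow, mul_one]

/-- The Baer trace. -/
theorem exists_trace (N : Type*) [Group N] [Finite N] (hodd : Odd (Nat.card N))
    (hc : ∀ x y : N, ⁅x, y⁆ ∈ Subgroup.center N) (S : Type*) [Group S] [Finite S]
    [MulDistribMulAction S N] :
    ∃ (P : N → N) (h : ℕ), (∀ x : N, x ^ (2 * h) = x) ∧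
      (∀ (s : S) x, s • P x = P x) ∧ (∀ (s : S) x, P (s • x) = P x) ∧
      (∀ α : N →* N, (∀ (s : S) x, α (s • x) = s • α x) → ∀ x, P (α x) = α (P x)) ∧
      (∀ x, (∀ s : S, s • x = x) → P x = x ^ Nat.card S) ∧
      (∀ x y, (∀ s : S, s • ⁅x, y⁆ = ⁅x, y⁆) →
        P (x * y) = P x * P y * ⁅P y, P x⁆ ^ h * ⁅x, y⁆ ^ (h * Nat.card S)) ∧
      (∀ (A : Type) [CommGroup A] (R : Subgroup N), (∀ (s : S), ∀ x ∈ R, s • x ∈ R) →
        ∀ μ : R →* A, (∀ (s : S) (x y : R), (y : N) = s • (x : N) → μ y = μ x) →
          ∀ (x : R), ∃ hx : P x ∈ R, μ ⟨P x, hx⟩ = μ x ^ Nat.card S) := by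
  classical
  obtain ⟨k, hk⟩ := hodd
  have hh : ∀ x : N, x ^ (2 * (k + 1)) = x := by
    intro x
    have h1 : 2 * (k + 1) = Nat.card N + 1 := by rw [hk]; ring
    rw [h1, pow_succ, pow_card_eq_one', one_mul]
  obtain ⟨h, rfl⟩ : ∃ h, h = k + 1 := ⟨_, rfl⟩
  generalize k + 1 = h at hh
  have hfS : Fintype S := Fintype.ofFinite S
  obtain ⟨V, _, e, he⟩ := exists_copy hc hh
  have he1 : e 1 = 1 := by
    have := he 1 1
    rw [one_bmul] at this
    exact mul_eq_left.1 this.symm
  have hepow : ∀ (x : N) (n : ℕ), e (x ^ n) = e x ^ n := by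
    intro x n
    induction n with
    | zero => rw [pow_zero, pow_zero, he1]
    | succ n ih =>
      rw [pow_succ, pow_succ, ← ih, ← he, bmul_of_commute h (Commute.pow_left rfl n)]
  let P : N → N := fun x => e.symm (∏ s : S, e (s • x))
  have hP : ∀ x : N, e (P x) = ∏ s : S, e (s • x) := fun x => e.apply_symm_apply _
  -- endomorphisms
  let lift : (N →* N) → (V →* V) := fun α =>
    { toFun := fun x => e (α (e.symm x))
      map_one' := by
        rw [← he1, e.symm_apply_apply, map_one]
      map_mul' := fun x y => by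
        obtain ⟨x, rfl⟩ := e.surjective x
        obtain ⟨y, rfl⟩ := e.surjective y
        rw [← he, e.symm_apply_apply, e.symm_apply_apply, e.symm_apply_apply, map_bmul, he] }
  have hlift : ∀ (α : N →* N) (x : N), lift α (e x) = e (α x) := fun α x => by
    show e (α (e.symm (e x))) = _
    rw [e.symm_apply_apply]
  have hact : ∀ (s : S) (x : N), e (s • x) = lift (MulDistribMulAction.toMonoidHom N s) (e x) :=
    fun s x => by rw [hlift]; rfl
  refine ⟨P, h, hh, ?_, ?_, ?_, ?_, ?_, ?_⟩
  · intro s x
    apply e.injective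
    rw [hact, hP, map_prod]
    refine Fintype.prod_bijective (fun t : S => s * t) (Group.mulLeft_bijective s) _ _ fun t => ?_
    rw [← hact, mul_smul]
  · intro s x
    apply e.injective
    rw [hP, hP]
    refine Fintype.prod_bijective (fun t : S => t * s) (Group.mulRight_bijective s) _ _ fun t => ?_
    rw [mul_smul]
  · intro α hα x
    apply e.injective
    rw [← hlift, hP, hP, map_prod]
    refine Finset.prod_congr rfl fun s _ => ?_
    rw [hlift, hα]
  · intro x hx
    apply e.injective
    rw [hP, hepow, Finset.prod_congr rfl fun s _ => by rw [hx s], Finset.prod_const,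
      Finset.card_univ, Nat.card_eq_fintype_card]
  · intro x y hxy
    have e0 : ∀ a b : N, P (bmul h a b) = bmul h (P a) (P b) := by
      intro a b
      apply e.injective
      rw [hP, he, hP, hP, ← Finset.prod_mul_distrib]
      refine Finset.prod_congr rfl fun s _ => ?_
      rw [hact, he, map_mul, ← hact, ← hact]
    have e1 : P (⁅x, y⁆ ^ h) = ⁅x, y⁆ ^ (h * Nat.card S) := by
      apply e.injective
      rw [hP, Finset.prod_congr rfl fun s _ => by rw [smul_pow', hxy s], Finset.prod_const,
        Finset.card_univ, Nat.card_eq_fintype_card, pow_mul, hepow _ (Fintype.card S)]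
    have e2 : ⁅x, y⁆ ^ (h * Nat.card S) ∈ Subgroup.center N := Subgroup.pow_mem _ (hc _ _) _
    rw [mul_eq_bmul hc h x y, e0, e0, e1, bmul_of_commute h, bmul_def]
    exact (Subgroup.mem_center_iff.mp e2 _)
  · intro A _ R hR μ hμ x
    -- the subgroup of the Baer group
    let R' : Subgroup V :=
      { carrier := {y : V | e.symm y ∈ R}
        mul_mem' := by
          intro a b ha hb
          obtain ⟨a, rfl⟩ := e.surjective a
          obtain ⟨b, rfl⟩ := e.surjective b
          rw [Set.mem_ofPred_eq, e.symm_apply_apply] at ha hb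
          rw [Set.mem_ofPred_eq, ← he, e.symm_apply_apply, bmul_def]
          refine R.mul_mem (R.mul_mem ha hb) (R.pow_mem ?_ _)
          rw [commutatorElement_def]
          exact R.mul_mem (R.mul_mem (R.mul_mem hb ha) (R.inv_mem hb)) (R.inv_mem ha)
        one_mem' := by
          rw [Set.mem_ofPred_eq, ← he1, e.symm_apply_apply]
          exact R.one_mem
        inv_mem' := by
          intro a ha
          obtain ⟨a, rfl⟩ := e.surjective a
          rw [Set.mem_ofPred_eq, e.symm_apply_apply] at ha
          have h1 : e a⁻¹ = (e a)⁻¹ := by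
            rw [eq_inv_iff_mul_eq_one, ← he, inv_bmul, he1]
          rw [Set.mem_ofPred_eq, ← h1, e.symm_apply_apply]
          exact R.inv_mem ha }
    have hR' : ∀ y : V, y ∈ R' ↔ e.symm y ∈ R := fun y => Iff.rfl
    let μ' : R' →* A :=
      { toFun := fun y => μ ⟨e.symm (y : V), y.2⟩
        map_one' := by
          rw [← map_one μ]
          congr 1
          apply Subtype.ext
          show e.symm 1 = 1
          rw [← he1, e.symm_apply_apply]
        map_mul' := by
          intro a b
          have ha' : e.symm (a : V) ∈ R := a.2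
          have hb' : e.symm (b : V) ∈ R := b.2
          have e5 : (⟨e.symm ((a * b : R') : V), (a * b).2⟩ : R) =
              ⟨e.symm (a : V), ha'⟩ * ⟨e.symm (b : V), hb'⟩ *
                ⁅(⟨e.symm (b : V), hb'⟩ : R), ⟨e.symm (a : V), ha'⟩⁆ ^ h := by
            apply Subtype.ext
            show e.symm ((a : V) * (b : V)) = e.symm (a : V) * e.symm (b : V) *
              ⁅e.symm (b : V), e.symm (a : V)⁆ ^ h
            rw [← bmul_def]
            apply e.injective
            rw [he, e.apply_symm_apply, e.apply_symm_apply, e.apply_symm_apply]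
          rw [e5, map_mul, map_mul, map_pow, map_commutatorElement,
            commutatorElement_eq_one_iff_mul_comm.mpr (mul_comm _ _), one_pow, mul_one] }
    have hmem : ∀ s : S, e (s • (x : N)) ∈ R' := fun s => by
      rw [hR', e.symm_apply_apply]
      exact hR s x x.2
    have e1 : e (P x) = ((∏ s : S, (⟨e (s • (x : N)), hmem s⟩ : R') : R') : V) := by
      rw [hP, Subgroup.val_finsetProd]
    have hx : P x ∈ R := by
      have h1 := (∏ s : S, (⟨e (s • (x : N)), hmem s⟩ : R') : R').2
      rw [← e1, hR', e.symm_apply_apply] at h1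
      exact h1
    refine ⟨hx, ?_⟩
    have e2 : μ ⟨P x, hx⟩ = μ' (∏ s : S, (⟨e (s • (x : N)), hmem s⟩ : R')) := by
      show _ = μ ⟨_, _⟩
      congr 1
      apply Subtype.ext
      show P x = e.symm _
      rw [← e1, e.symm_apply_apply]
    rw [e2, map_prod]
    have e3 : ∀ s : S, μ' ⟨e (s • (x : N)), hmem s⟩ = μ x := by
      intro s
      refine hμ s x ⟨_, _⟩ ?_
      exact e.symm_apply_apply _
    rw [Finset.prod_congr rfl fun s _ => e3 s, Finset.prod_const, Finset.card_univ,
      Nat.card_eq_fintype_card]

end Cfsg.Agent.H596.BaerTrace
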