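import Cfsg.Agent.CharDeep.TripleCover

/-!
# A finite cover of a character triple with a group of automorphisms

`L` is normal in the finite group `G` and `ρ` is an irreducible representation of `L` whose character
is invariant under `G` and under the group `S` acting on `G`. The cover `E` of `G` whose elements are
pairs `(g, T)` carries an action of `S`.
-/

set_option autoImplicit false

namespace Cfsg.Agent.H596.CoverAct

open Cfsg Representation Module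
open Cfsg.Agent.CharDeep.IrrEquiv Cfsg.Agent.CharDeep.ProjExt Cfsg.Agent.CharDeep.TripleCover

universe u

theorem exists_cover {G : Type u} [Group G] [Finite G] {S : Type*} [Group S]
    [MulDistribMulAction S G] (L : Subgroup G) [hL : L.Normal] {n : ℕ}
    (ρ : Representation ℂ L (Fin n → ℂ)) (hρ : ρ.IsIrreducible)
    (hG : ∀ (g : G) (l : L), ρ.character (MulAut.conjNormal g l) = ρ.character l)
    (hLS : ∀ (s : S), ∀ l ∈ L, s • l ∈ L)
    (hS : ∀ (s : S) (x y : L), (y : G) = s • (x : G) → ρ.character y = ρ.character x) :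
    ∃ (E : Type u) (_ : Group E) (_ : Finite E) (_ : MulDistribMulAction S E) (p : E →* G)
      (σ : Representation ℂ E (Fin n → ℂ)) (j : L →* E),
      Function.Surjective p ∧ (∀ l, p (j l) = l) ∧ (∀ l, σ (j l) = ρ l) ∧
      (∀ x, p x = 1 → ∃ c : ℂ, σ x = c • (1 : (Fin n → ℂ) →ₗ[ℂ] (Fin n → ℂ))) ∧
      (∀ x, p x = 1 → x ∈ Subgroup.center E) ∧
      (∀ x l, x * j l * x⁻¹ = j (MulAut.conjNormal (p x) l)) ∧
      (∀ (s : S) x, p (s • x) = s • p x) ∧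
      (∀ (s : S) (l l' : L), (l' : G) = s • (l : G) → s • j l = j l') ∧
      (∀ (s : S) x, p x = 1 → s • x = x) ∧
      (∀ (s : S) x, σ.character (s • x) = σ.character x) ∧
      (∀ x, p x = 1 → x ^ (n * Nat.card L) = 1) := by
  classical
  have hV : Nontrivial (Fin n → ℂ) :=
    ((Cfsg.Agent.CharDeep.LinearChar.isIrreducible_iff ρ).1 hρ).1
  -- intertwiners
  have hT0 : ∀ s : S, ∃ T : ((Fin n → ℂ) →ₗ[ℂ] (Fin n → ℂ))ˣ, ∀ l l' : L, (l' : G) = s • (l : G) →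
      (T : (Fin n → ℂ) →ₗ[ℂ] (Fin n → ℂ)) * ρ l = ρ l' * T := by
    intro s
    let a : L →* L :=
      { toFun := fun x => ⟨s • (x : G), hLS s x x.2⟩
        map_one' := Subtype.ext (smul_one s)
        map_mul' := fun x y => Subtype.ext (smul_mul' s (x : G) (y : G)) }
    let σ : Representation ℂ L (Fin n → ℂ) := ρ.comp a
    have hchar : ρ.character = σ.character := by
      ext x
      exact (hS s x (a x) rfl).symm
    obtain ⟨φ⟩ := nonempty_equiv ρ σ hρ hchar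
    refine ⟨LinearMap.GeneralLinearGroup.ofLinearEquiv φ.toLinearEquiv, fun l l' hl => ?_⟩
    have h1 : l' = a l := Subtype.ext hl
    rw [h1]
    exact φ.isIntertwining' l
  choose T hT using hT0
  -- commuting with `ρ` implies central
  have hcent : ∀ U : ((Fin n → ℂ) →ₗ[ℂ] (Fin n → ℂ))ˣ,
      (∀ l, (U : (Fin n → ℂ) →ₗ[ℂ] (Fin n → ℂ)) * ρ l = ρ l * U) → ∀ W, U * W = W * U := by
    intro U hU W
    obtain ⟨c, hc⟩ := exists_smul_of_commute ρ hρ _ hU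
    apply Units.ext
    rw [Units.val_mul, Units.val_mul, hc, smul_mul_assoc, mul_smul_comm, one_mul, mul_one]
  have hTmul : ∀ (s t : S) (W : ((Fin n → ℂ) →ₗ[ℂ] (Fin n → ℂ))ˣ),
      T (s * t) * W * (T (s * t))⁻¹ = T s * (T t * W * (T t)⁻¹) * (T s)⁻¹ := by
    intro s t W
    have h1 := hcent ((T (s * t))⁻¹ * (T s * T t)) (by
      intro l
      have e1 := hT t l ⟨t • (l : G), hLS t l l.2⟩ rfl
      have e2 := hT s ⟨t • (l : G), hLS t l l.2⟩ ⟨s • t • (l : G), hLS s _ (hLS t l l.2)⟩ rfl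
      have e3 := hT (s * t) l ⟨s • t • (l : G), hLS s _ (hLS t l l.2)⟩ (mul_smul s t (l : G)).symm
      have e4 : (((T (s * t))⁻¹ : ((Fin n → ℂ) →ₗ[ℂ] (Fin n → ℂ))ˣ) : (Fin n → ℂ) →ₗ[ℂ] (Fin n → ℂ)) *
          ρ ⟨s • t • (l : G), hLS s _ (hLS t l l.2)⟩ = ρ l *
          (((T (s * t))⁻¹ : ((Fin n → ℂ) →ₗ[ℂ] (Fin n → ℂ))ˣ) : (Fin n → ℂ) →ₗ[ℂ] (Fin n → ℂ)) := by
        rw [Units.inv_mul_eq_iff_eq_mul, ← mul_assoc, e3, mul_assoc, Units.mul_inv, mul_one]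
      rw [Units.val_mul, Units.val_mul, mul_assoc, mul_assoc, e1]
      have e5 : (T s : (Fin n → ℂ) →ₗ[ℂ] (Fin n → ℂ)) * (ρ ⟨t • (l : G), hLS t l l.2⟩ *
          (T t : (Fin n → ℂ) →ₗ[ℂ] (Fin n → ℂ))) = ρ ⟨s • t • (l : G), hLS s _ (hLS t l l.2)⟩ *
          ((T s : (Fin n → ℂ) →ₗ[ℂ] (Fin n → ℂ)) * (T t : (Fin n → ℂ) →ₗ[ℂ] (Fin n → ℂ))) := by
        rw [← mul_assoc, e2, mul_assoc]
      rw [e5, ← mul_assoc, e4, mul_assoc]) W
    have h2 : T (s * t) * ((T (s * t))⁻¹ * (T s * T t) * W) * (T t)⁻¹ * (T s)⁻¹ =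
        T (s * t) * (W * ((T (s * t))⁻¹ * (T s * T t))) * (T t)⁻¹ * (T s)⁻¹ := by rw [h1]
    calc T (s * t) * W * (T (s * t))⁻¹
        = T (s * t) * (W * ((T (s * t))⁻¹ * (T s * T t))) * (T t)⁻¹ * (T s)⁻¹ := by group
      _ = T (s * t) * ((T (s * t))⁻¹ * (T s * T t) * W) * (T t)⁻¹ * (T s)⁻¹ := h2.symm
      _ = T s * (T t * W * (T t)⁻¹) * (T s)⁻¹ := by group
  have hTone : ∀ W, T 1 * W * (T 1)⁻¹ = W := by
    intro W
    have h1 := hcent (T 1) (fun l => hT 1 l l (one_smul S (l : G)).symm) W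
    rw [h1, mul_inv_cancel_right]
  -- the cover
  have hmpos : 0 < Nat.card L := Nat.card_pos
  let D : (G × ((Fin n → ℂ) →ₗ[ℂ] (Fin n → ℂ))ˣ) →* ℂˣ :=
    (Units.map (LinearMap.det : ((Fin n → ℂ) →ₗ[ℂ] (Fin n → ℂ)) →* ℂ)).comp
      (MonoidHom.snd G ((Fin n → ℂ) →ₗ[ℂ] (Fin n → ℂ))ˣ)
  let P : (G × ((Fin n → ℂ) →ₗ[ℂ] (Fin n → ℂ))ˣ) →* ℂˣ := (powMonoidHom (Nat.card L)).comp D
  let Δ : Subgroup (G × ((Fin n → ℂ) →ₗ[ℂ] (Fin n → ℂ))ˣ) := intGroup ρ ⊓ P.ker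
  have hΔ : Δ ≤ intGroup ρ := inf_le_left
  have hker : ∀ x : Δ, x.1.1 = 1 → ∃ c : ℂ, (x.1.2 : (Fin n → ℂ) →ₗ[ℂ] (Fin n → ℂ)) = c • 1 :=
    fun x hx => exists_scalar_of_fst_eq_one ρ hρ x.1 (hΔ x.2) hx
  have hpow : ∀ (x : Δ) (c : ℂ), (x.1.2 : (Fin n → ℂ) →ₗ[ℂ] (Fin n → ℂ)) = c • 1 →
      c ^ (n * Nat.card L) = 1 := by
    intro x c hc
    have h1 : P x.1 = 1 := x.2.2
    have h2 : (LinearMap.det (x.1.2 : (Fin n → ℂ) →ₗ[ℂ] (Fin n → ℂ))) ^ Nat.card L = 1 :=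
      congrArg Units.val h1
    rw [hc, LinearMap.det_smul, map_one, mul_one, ← pow_mul, finrank_fin_fun] at h2
    exact h2
  have hnpos : 0 < n := by
    have := finrank_pos (R := ℂ) (M := Fin n → ℂ)
    rwa [finrank_fin_fun] at this
  have hfinE : Finite Δ := by
    have hfin : Finite (proj Δ).ker := by
      have : NeZero (n * Nat.card L) := ⟨(Nat.mul_pos hnpos hmpos).ne'⟩
      have hroots : Finite (rootsOfUnity (n * Nat.card L) ℂ) := by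
        infer_instance
      choose c hc using hker
      refine Finite.of_injective
        (fun x : (proj Δ).ker => (rootsOfUnity.mkOfPowEq (n := n * Nat.card L)
          (c x.1 x.2) (hpow _ _ (hc x.1 x.2)))) ?_
      intro x y hxy
      have h3 : c x.1 x.2 = c y.1 y.2 := by
        have := congrArg (fun z : rootsOfUnity (n * Nat.card L) ℂ => ((z : ℂˣ) : ℂ)) hxy
        simpa using this
      apply Subtype.ext
      apply Subtype.ext
      refine Prod.ext ?_ (Units.ext ?_)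
      · exact (x.2 : proj Δ x.1 = 1).trans (y.2 : proj Δ y.1 = 1).symm
      · rw [hc x.1 x.2, hc y.1 y.2, h3]
    exact Finite.of_equiv _ (Subgroup.groupEquivQuotientProdSubgroup (s := (proj Δ).ker)).symm
  have hmem : ∀ (s : S) (x : Δ), (s • x.1.1, T s * x.1.2 * (T s)⁻¹) ∈ Δ := by
    intro s x
    refine ⟨?_, ?_⟩
    · show (s • x.1.1, T s * x.1.2 * (T s)⁻¹) ∈ intGroup ρ
      rw [mem_intGroup]
      intro l
      let l0 : L := ⟨s⁻¹ • (l : G), hLS _ _ l.2⟩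
      have e0 : (l : G) = s • (l0 : G) := (smul_inv_smul s (l : G)).symm
      have e1 := hT s l0 l e0
      have e2 := (mem_intGroup ρ x.1).1 (hΔ x.2) l0
      have e3 := hT s (MulAut.conjNormal x.1.1 l0) (MulAut.conjNormal (s • x.1.1) l) (by
        rw [MulAut.conjNormal_apply, MulAut.conjNormal_apply, smul_mul', smul_mul', smul_inv', e0])
      have e4 : (((T s)⁻¹ : ((Fin n → ℂ) →ₗ[ℂ] (Fin n → ℂ))ˣ) : (Fin n → ℂ) →ₗ[ℂ] (Fin n → ℂ)) * ρ l =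
          ρ l0 * (((T s)⁻¹ : ((Fin n → ℂ) →ₗ[ℂ] (Fin n → ℂ))ˣ) : (Fin n → ℂ) →ₗ[ℂ] (Fin n → ℂ)) := by
        rw [Units.inv_mul_eq_iff_eq_mul, ← mul_assoc, e1, mul_assoc, Units.mul_inv, mul_one]
      show ((T s * x.1.2 * (T s)⁻¹ : ((Fin n → ℂ) →ₗ[ℂ] (Fin n → ℂ))ˣ) : (Fin n → ℂ) →ₗ[ℂ] (Fin n → ℂ)) *
        ρ l = ρ (MulAut.conjNormal (s • x.1.1) l) *
        ((T s * x.1.2 * (T s)⁻¹ : ((Fin n → ℂ) →ₗ[ℂ] (Fin n → ℂ))ˣ) : (Fin n → ℂ) →ₗ[ℂ] (Fin n → ℂ))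
      have e5 : (T s : (Fin n → ℂ) →ₗ[ℂ] (Fin n → ℂ)) *
          (x.1.2 : (Fin n → ℂ) →ₗ[ℂ] (Fin n → ℂ)) * ρ l0 =
          ρ (MulAut.conjNormal (s • x.1.1) l) * ((T s : (Fin n → ℂ) →ₗ[ℂ] (Fin n → ℂ)) *
          (x.1.2 : (Fin n → ℂ) →ₗ[ℂ] (Fin n → ℂ))) := by
        rw [mul_assoc, e2, ← mul_assoc, e3, mul_assoc]
      rw [Units.val_mul, Units.val_mul, mul_assoc, e4, ← mul_assoc, e5]
      simp only [mul_assoc]
    · show D (s • x.1.1, T s * x.1.2 * (T s)⁻¹) ^ Nat.card L = 1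
      have h1 : D x.1 ^ Nat.card L = 1 := x.2.2
      have h2 : D (s • x.1.1, T s * x.1.2 * (T s)⁻¹) = D x.1 := by
        show Units.map _ (T s * x.1.2 * (T s)⁻¹) = Units.map _ x.1.2
        rw [map_mul, map_mul, map_inv, mul_comm, inv_mul_cancel_left]
      rw [h2, h1]
  let act : MulDistribMulAction S Δ :=
    { smul := fun s x => ⟨(s • x.1.1, T s * x.1.2 * (T s)⁻¹), hmem s x⟩
      one_smul := fun x => Subtype.ext (Prod.ext (one_smul S x.1.1) (hTone x.1.2))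
      mul_smul := fun s t x => Subtype.ext (Prod.ext (mul_smul s t x.1.1) (hTmul s t x.1.2))
      smul_mul := fun s x y => Subtype.ext (Prod.ext (smul_mul' s x.1.1 y.1.1) (by
        show T s * (x.1.2 * y.1.2) * (T s)⁻¹ = T s * x.1.2 * (T s)⁻¹ * (T s * y.1.2 * (T s)⁻¹)
        group))
      smul_one := fun s => Subtype.ext (Prod.ext (smul_one s) (by
        show T s * 1 * (T s)⁻¹ = 1
        group)) }
  have hact : ∀ (s : S) (x : Δ), (s • x : Δ).1 = (s • x.1.1, T s * x.1.2 * (T s)⁻¹) :=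
    fun s x => rfl
  have hsec : ∀ l, sec ρ l ∈ Δ := by
    intro l
    refine ⟨sec_mem_intGroup ρ l, ?_⟩
    show (D (sec ρ l)) ^ Nat.card L = 1
    rw [← map_pow, ← map_pow, pow_card_eq_one', map_one, map_one]
  refine ⟨Δ, inferInstance, hfinE, act, proj Δ, coverRep Δ, (sec ρ).codRestrict Δ hsec, ?_, ?_, ?_,
    ?_, ?_, ?_, ?_, ?_, ?_, ?_, ?_⟩
  · intro g
    obtain ⟨U, hU, hUd⟩ := exists_mem_intGroup ρ hρ hG g 1
    refine ⟨⟨(g, U), hU, ?_⟩, rfl⟩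
    show (D (g, U)) ^ Nat.card L = 1
    have : D (g, U) = 1 := Units.ext hUd
    rw [this, one_pow]
  · intro l; rfl
  · intro l; rfl
  · intro x hx
    exact hker x hx
  · intro x hx
    obtain ⟨c, hc⟩ := hker x hx
    rw [Subgroup.mem_center_iff]
    intro y
    apply Subtype.ext
    refine Prod.ext ?_ (Units.ext ?_)
    · show y.1.1 * x.1.1 = x.1.1 * y.1.1
      have : x.1.1 = 1 := hx
      rw [this, mul_one, one_mul]
    · show ((y.1.2 * x.1.2 : ((Fin n → ℂ) →ₗ[ℂ] (Fin n → ℂ))ˣ) : (Fin n → ℂ) →ₗ[ℂ] (Fin n → ℂ)) =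
        ((x.1.2 * y.1.2 : ((Fin n → ℂ) →ₗ[ℂ] (Fin n → ℂ))ˣ) : _)
      rw [Units.val_mul, Units.val_mul, hc, smul_mul_assoc, mul_smul_comm, one_mul, mul_one]
  · intro x l
    apply Subtype.ext
    exact conj_sec ρ x.1 (hΔ x.2) l
  · intro s x; rfl
  · intro s l l' hl
    apply Subtype.ext
    rw [hact]
    refine Prod.ext hl.symm (Units.ext ?_)
    show ((T s * (sec ρ l).2 * (T s)⁻¹ : ((Fin n → ℂ) →ₗ[ℂ] (Fin n → ℂ))ˣ) :
      (Fin n → ℂ) →ₗ[ℂ] (Fin n → ℂ)) = ((sec ρ l').2 : (Fin n → ℂ) →ₗ[ℂ] (Fin n → ℂ))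
    rw [Units.val_mul, Units.val_mul, sec_snd, sec_snd, hT s l l' hl, mul_assoc, Units.mul_inv,
      mul_one]
  · intro s x hx
    obtain ⟨c, hc⟩ := hker x hx
    apply Subtype.ext
    rw [hact]
    have hx' : x.1.1 = 1 := hx
    refine Prod.ext ?_ (Units.ext ?_)
    · show s • x.1.1 = x.1.1
      rw [hx', smul_one]
    · show ((T s * x.1.2 * (T s)⁻¹ : ((Fin n → ℂ) →ₗ[ℂ] (Fin n → ℂ))ˣ) :
        (Fin n → ℂ) →ₗ[ℂ] (Fin n → ℂ)) = (x.1.2 : (Fin n → ℂ) →ₗ[ℂ] (Fin n → ℂ))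
      rw [Units.val_mul, Units.val_mul, hc, mul_smul_comm, mul_one, smul_mul_assoc, Units.mul_inv]
  · intro s x
    show LinearMap.trace ℂ _ ((T s * x.1.2 * (T s)⁻¹ : ((Fin n → ℂ) →ₗ[ℂ] (Fin n → ℂ))ˣ) :
        (Fin n → ℂ) →ₗ[ℂ] (Fin n → ℂ)) = LinearMap.trace ℂ _ (x.1.2 : (Fin n → ℂ) →ₗ[ℂ] (Fin n → ℂ))
    rw [Units.val_mul, LinearMap.trace_mul_comm, Units.val_mul, ← mul_assoc, Units.inv_mul, one_mul]
  · intro x hx
    obtain ⟨c, hc⟩ := hker x hx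
    apply Subtype.ext
    refine Prod.ext ?_ (Units.ext ?_)
    · show x.1.1 ^ (n * Nat.card L) = 1
      have hx' : x.1.1 = 1 := hx
      rw [hx', one_pow]
    · show ((x.1.2 ^ (n * Nat.card L) : ((Fin n → ℂ) →ₗ[ℂ] (Fin n → ℂ))ˣ) :
        (Fin n → ℂ) →ₗ[ℂ] (Fin n → ℂ)) = 1
      rw [Units.val_pow_eq_pow_val, hc, smul_pow, one_pow, hpow x c hc, one_smul]

end Cfsg.Agent.H596.CoverAct
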