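import Cfsg.Agent.CharactersDeep.MaxInduced
import Cfsg.Agent.CharactersDeep.CosetAverage
import Cfsg.Agent.Classification.BGIsometry
import Cfsg.Agent.OddOrderCharacters.PF9.Reducible

/-!
# Multiplication by a character which is irreducible on a normal subgroup

`E` is a finite group with two surjective homomorphisms `p : E →* G` and `q : E →* Q`, and `X` is an
irreducible character of `E` which is irreducible on the kernel of `q`. Functions `f` on `G` and `h`
on `Q` are related if `f ∘ p = X * (h ∘ q)`.
-/

set_option autoImplicit false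

open scoped ComplexConjugate

namespace Cfsg.Agent.H596.CoverCor

open Cfsg
open Cfsg.Agent.Characters.Core
open Cfsg.Agent.CharactersDeep.CosetAverage
open Cfsg.Agent.Classification.BGIsometry (classInner_comp')

variable {E G Q : Type*} [Group E] [Group G] [Group Q]

/-- Related functions. -/
def Rel (p : E →* G) (q : E →* Q) (X : E → ℂ) (f : G → ℂ) (h : Q → ℂ) : Prop :=
  ∀ x, f (p x) = X x * h (q x)

variable {p : E →* G} {q : E →* Q} {X : E → ℂ}

/-- Multiplication by `X` is isometric. -/
theorem classInner_mul [Fintype E] [Fintype Q] (hq : Function.Surjective q)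
    (hX : IsIrrCharacter E X) [Fintype q.ker] (hXN : IsIrrCharacter q.ker (fun n => X n))
    (h h' : Q → ℂ) :
    classInner (fun x => X x * h (q x)) (fun x => X x * h' (q x)) = classInner h h' := by
  rw [← classInner_comp' q hq h h', classInner_def, classInner_def]
  congr 1
  have e1 : ∀ x : E, X x * h (q x) * conj (X x * h' (q x)) =
      (X x * conj (X x)) * (h (q x) * conj (h' (q x))) := by
    intro x
    rw [map_mul]
    ring
  rw [Finset.sum_congr rfl fun x _ => e1 x, sum_mul_invariant q.ker (fun x => X x * conj (X x))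
    (fun x => h (q x) * conj (h' (q x))) (fun n g => by
      rw [map_mul, (MonoidHom.mem_ker.1 n.2 : q n = 1), one_mul])]
  refine Finset.sum_congr rfl fun x _ => ?_
  rw [cosetAverage_self q.ker X hX hXN x, one_mul]
  rfl

theorem Rel.classInner [Fintype E] [Fintype Q] [Fintype G] (hp : Function.Surjective p)
    (hq : Function.Surjective q) (hX : IsIrrCharacter E X) [Fintype q.ker]
    (hXN : IsIrrCharacter q.ker (fun n => X n)) {f f' : G → ℂ} {h h' : Q → ℂ} (h1 : Rel p q X f h)
    (h2 : Rel p q X f' h') : Cfsg.classInner f f' = Cfsg.classInner h h' := by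
  rw [← classInner_comp' p hp f f', ← classInner_mul hq hX hXN h h']
  congr 1
  · funext x; exact h1 x
  · funext x; exact h2 x

/-- From `G` to `Q`. -/
theorem exists_rel_of_over [Fintype E] (hp : Function.Surjective p)
    (hq : Function.Surjective q) (hX : IsIrrCharacter E X) [Fintype q.ker]
    (hXN : IsIrrCharacter q.ker (fun n => X n)) {χ : G → ℂ} (hχ : IsIrrCharacter G χ)
    (hne : Cfsg.classInner (fun n : q.ker => χ (p n)) (fun n : q.ker => X n) ≠ 0) :
    ∃ η : Q → ℂ, IsIrrCharacter Q η ∧ Rel p q X χ η := by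
  have h1 : IsIrrCharacter E (χ ∘ p) := isIrr_comp p hp hχ
  obtain ⟨η, hη, hinv, he⟩ := exists_irr_mul q.ker X hX hXN (χ ∘ p) h1 hne
  obtain ⟨η', hη', he'⟩ :=
    Cfsg.Agent.OddOrderCharacters.PF9.Reducible.exists_of_surjective q hq hη (by
      intro g hg
      have := hinv ⟨g, MonoidHom.mem_ker.2 hg⟩ 1
      rwa [mul_one] at this)
  refine ⟨η', hη', fun x => ?_⟩
  rw [he']
  exact congrFun he x

/-- From `Q` to `G`. -/
theorem exists_rel_of_ker [Fintype E] [Fintype Q] (hp : Function.Surjective p)
    (hq : Function.Surjective q) (hX : IsIrrCharacter E X) [Fintype q.ker]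
    (hXN : IsIrrCharacter q.ker (fun n => X n)) {η : Q → ℂ} (hη : IsIrrCharacter Q η)
    (hker : ∀ z, p z = 1 → X z * η (q z) = X 1 * η 1) :
    ∃ χ : G → ℂ, IsIrrCharacter G χ ∧ Rel p q X χ η := by
  have h1 : IsIrrCharacter E (fun x => X x * η (q x)) := by
    apply isIrr_of_classInner_self
    · exact isCharacter_mul (isIrr_isCharacter hX) (isCharacter_comp q (isIrr_isCharacter hη))
    · rw [classInner_mul hq hX hXN, classInner_irr_self hη]
  obtain ⟨χ, hχ, he⟩ :=
    Cfsg.Agent.OddOrderCharacters.PF9.Reducible.exists_of_surjective p hp h1 (by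
      intro g hg
      show X g * η (q g) = X 1 * η (q 1)
      rw [hker g hg, map_one])
  exact ⟨χ, hχ, he⟩

end Cfsg.Agent.H596.CoverCor
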