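import Cfsg.Agent.H596.OddConf
import Cfsg.Agent.H595.Solv
import Cfsg.Agent.OddOrderCharacters.PF9.CliffGen
import Cfsg.Agent.CharDeep.CliffordCorr
import Cfsg.Agent.CharDeep.IrrEquiv

/-!
# The character correspondence for central configurations

In a reduced central configuration the `S`-invariant irreducible characters of `G` are those
invariant under the involutory automorphism `τ`.
-/

set_option autoImplicit false

open scoped commutatorElement ComplexConjugate

namespace Cfsg.Agent.H596.OddConf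

open Cfsg Module
open Cfsg.Agent.Characters.Core
open Cfsg.Agent.H593.GlaubermanP (Setup Inv)
open Cfsg.Agent.H595.Solv
open Cfsg.Agent.OddOrderCharacters.PF9.CliffGen
open Cfsg.Agent.OddOrderCharacters.IndRes (res)

/-- A non-zero intertwiner of an irreducible representation with its twist by an automorphism. -/
theorem char_eq_of_intertwiner {G : Type*} [Group G] [Fintype G] {n : ℕ}
    (ρ : Representation ℂ G (Fin n → ℂ)) (hρ : IsIrrCharacter G ρ.character) (τ : MulAut G)
    (T : (Fin n → ℂ) →ₗ[ℂ] (Fin n → ℂ)) (hT0 : T ≠ 0) (hT : ∀ g, T * ρ g = ρ (τ g) * T) (g : G) :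
    ρ.character (τ g) = ρ.character g := by
  let σ : Representation ℂ G (Fin n → ℂ) := ρ.comp τ.toMonoidHom
  let f : Representation.IntertwiningMap ρ σ :=
    LinearMap.intertwiningMap_of_isIntertwiningMap ρ σ T fun g v => by
      have := LinearMap.congr_fun (hT g) v
      exact this
  have hf : f ≠ 0 := by
    intro h
    apply hT0
    have := congrArg Representation.IntertwiningMap.toLinearMap h
    exact this
  have h1 := classInner_character σ ρ
  have h2 : finrank ℂ (Representation.IntertwiningMap ρ σ) ≠ 0 := by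
    intro h
    have h3 := Module.finrank_zero_iff.1 h
    exact hf (Subsingleton.elim _ _)
  have h3 : σ.character = ρ.character ∘ τ := rfl
  have h4 : IsIrrCharacter G (ρ.character ∘ τ) := isIrr_comp τ.toMonoidHom τ.surjective hρ
  by_contra hne
  have h5 : ρ.character ∘ τ ≠ ρ.character := fun h => hne (congrFun h g)
  rw [h3, classInner_irr_ne h4 hρ h5] at h1
  exact h2 (by exact_mod_cast h1.symm)

variable {G : Type*} [Group G] [Fintype G] {S : Type*} [Group S] [MulDistribMulAction S G]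

/-- A class function constituent is invariant: the commuting case of Glauberman's lemma. -/
theorem inv_of_conj {R : Subgroup G} [hR : R.Normal] {j : ℕ}
    (hj : ∀ s : S, s ^ (Nat.card G * j) = s) (hRS : ∀ s : S, ∀ x ∈ R, s • x ∈ R) (f : R → ℂ) (s : S)
    (h : ∃ g : G, (∀ t : S, t • g = g) ∧ ∀ x y : R, (y : G) = s • (x : G) →
      f y = f ⟨g * x * g⁻¹, hR.conj_mem x x.2 g⟩) (x y : R) (hxy : (y : G) = s • (x : G)) :
    f y = f x := by
  obtain ⟨g, hg, h⟩ := h
  have h1 : ∀ n : ℕ, ∀ x y : R, (y : G) = s ^ n • (x : G) →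
      f y = f ⟨g ^ n * x * (g ^ n)⁻¹, hR.conj_mem x x.2 (g ^ n)⟩ := by
    intro n
    induction n with
    | zero =>
      intro x y hy
      congr 1
      apply Subtype.ext
      rw [hy, pow_zero, one_smul]
      simp
    | succ n ih =>
      intro x y hy
      have e1 : (y : G) = s • ((⟨s ^ n • (x : G), hRS _ _ x.2⟩ : R) : G) := by
        rw [hy, pow_succ', mul_smul]
      rw [h _ y e1]
      have e2 : ((⟨g * (⟨s ^ n • (x : G), hRS _ _ x.2⟩ : R) * g⁻¹,
          hR.conj_mem _ (hRS _ _ x.2) g⟩ : R) : G) =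
          s ^ n • ((⟨g * x * g⁻¹, hR.conj_mem x x.2 g⟩ : R) : G) := by
        show g * (s ^ n • (x : G)) * g⁻¹ = s ^ n • (g * x * g⁻¹)
        rw [smul_mul', smul_mul', smul_inv', hg]
      rw [ih _ _ e2]
      congr 1
      apply Subtype.ext
      show g ^ n * (g * x * g⁻¹) * (g ^ n)⁻¹ = g ^ (n + 1) * x * (g ^ (n + 1))⁻¹
      rw [pow_succ]
      group
  have h2 := h1 (Nat.card G * j) x y (by rw [hj]; exact hxy)
  rw [h2]
  congr 1
  apply Subtype.ext
  show g ^ (Nat.card G * j) * x * (g ^ (Nat.card G * j))⁻¹ = x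
  rw [pow_mul, pow_card_eq_one', one_pow]
  simp

/-- In a reduced central configuration an `S`-invariant character is `τ`-invariant. -/
theorem Conf.tau_of_inv [Finite S] {K Z : Subgroup G} (c : Conf S K Z) (F : G → G)
    (hFμ : ∀ (R : Subgroup G), R ≤ K → (∀ (s : S), ∀ x ∈ R, s • x ∈ R) →
        ∀ μ : R →* ℂˣ, (∀ (s : S) (x y : R), (y : G) = s • (x : G) → μ y = μ x) →
          ∀ (x : R), F x = 1 → μ x = 1) (hFZ : ∀ x ∈ K, F x ∈ Z)
    (τ : MulAut G) (hτ : ∀ k ∈ K, ∀ g, (∀ s : S, s • g = g) → τ (k * g) = F k * k⁻¹ * g)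
    (hττ : ∀ g, τ (τ g) = g) (χ : IrrCharacter G) (hχ : Inv S (χ : G → ℂ)) (g : G) :
    (χ : G → ℂ) (τ g) = (χ : G → ℂ) g := by
  classical
  obtain ⟨χ, hirr⟩ := χ
  have hn := c.normal
  obtain ⟨n, ρ, hρ, rfl⟩ := isIrrCharacter_def.1 hirr
  show ρ.character (τ g) = ρ.character g
  have hZc : ∀ z ∈ Z, ∀ g : G, g * z = z * g := fun z hz g =>
    Subgroup.mem_center_iff.1 (c.center hz) g
  have hτK : ∀ k ∈ K, τ k = F k * k⁻¹ := by
    intro k hk
    have := hτ k hk 1 (fun s => smul_one s)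
    rwa [mul_one, mul_one] at this
  have hτg : ∀ g : G, τ g * g⁻¹ ∈ K := by
    intro g
    obtain ⟨k, hk, g, hg, rfl⟩ := c.gen g
    rw [hτ k hk g hg]
    have : F k * k⁻¹ * g * (k * g)⁻¹ = F k * k⁻¹ * k⁻¹ := by group
    rw [this]
    exact K.mul_mem (K.mul_mem (c.le (hFZ k hk)) (K.inv_mem hk)) (K.inv_mem hk)
  let V : Finset G := Finset.univ.filter fun v => v ∈ K ∧ τ v = v⁻¹
  have hV : ∀ v, v ∈ V ↔ v ∈ K ∧ τ v = v⁻¹ := fun v => by simp [V]
  let T : (Fin n → ℂ) →ₗ[ℂ] (Fin n → ℂ) := ∑ v ∈ V, ρ v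
  -- `T` intertwines
  have hT : ∀ g, T * ρ g = ρ (τ g) * T := by
    intro g
    show (∑ v ∈ V, ρ v) * ρ g = ρ (τ g) * ∑ v ∈ V, ρ v
    rw [Finset.sum_mul, Finset.mul_sum]
    have hstab : ∀ g : G, ∀ v ∈ V, τ g * v * g⁻¹ ∈ V := by
      intro g v hv
      obtain ⟨hv, hv'⟩ := (hV v).1 hv
      rw [hV]
      constructor
      · have : τ g * v * g⁻¹ = (τ g * g⁻¹) * (g * v * g⁻¹) := by group
        rw [this]
        exact K.mul_mem (hτg g) (hn.conj_mem v hv g)
      · rw [map_mul, map_mul, hττ, map_inv, hv']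
        group
    symm
    refine Finset.sum_bij' (fun v _ => τ g * v * g⁻¹) (fun v _ => τ g⁻¹ * v * g⁻¹⁻¹) ?_ ?_ ?_ ?_ ?_
    · intro v hv; exact hstab g v hv
    · intro v hv; exact hstab g⁻¹ v hv
    · intro v hv
      simp only [map_inv]
      group
    · intro v hv
      simp only [map_inv]
      group
    · intro v hv
      rw [← map_mul, ← map_mul]
      congr 1
      group
  -- `R`
  let R : Subgroup G :=
    { carrier := {x | x ∈ K ∧ ∀ y ∈ K, ρ x * ρ y = ρ y * ρ x}
      mul_mem' := by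
        rintro a b ⟨ha, ha'⟩ ⟨hb, hb'⟩
        refine ⟨K.mul_mem ha hb, fun y hy => ?_⟩
        rw [map_mul, mul_assoc, hb' y hy, ← mul_assoc, ha' y hy, mul_assoc]
      one_mem' := ⟨K.one_mem, fun y _ => by rw [map_one, one_mul, mul_one]⟩
      inv_mem' := by
        rintro a ⟨ha, ha'⟩
        refine ⟨K.inv_mem ha, fun y hy => ?_⟩
        have h1 := ha' y hy
        have h2 : ρ a⁻¹ * (ρ a * ρ y) * ρ a⁻¹ = ρ a⁻¹ * (ρ y * ρ a) * ρ a⁻¹ := by rw [h1]
        have e1 : ρ a⁻¹ * ρ a = 1 := by rw [← map_mul, inv_mul_cancel, map_one]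
        have e2 : ρ a * ρ a⁻¹ = 1 := by rw [← map_mul, mul_inv_cancel, map_one]
        rw [← mul_assoc, e1, one_mul, mul_assoc, mul_assoc, e2, mul_one] at h2
        exact h2.symm }
  have hR : ∀ x, x ∈ R ↔ x ∈ K ∧ ∀ y ∈ K, ρ x * ρ y = ρ y * ρ x := fun x => Iff.rfl
  have hcomm_one : ∀ x ∈ R, ∀ y ∈ K, ρ ⁅x, y⁆ = 1 := by
    intro x hx y hy
    have h1 := ((hR x).1 hx).2 y hy
    have : ρ (x * y) = ρ (y * x) := by rw [map_mul, map_mul, h1]
    have e1 : ⁅x, y⁆ = x * y * (y * x)⁻¹ := by rw [commutatorElement_def]; group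
    rw [e1, map_mul, this, ← map_mul, mul_inv_cancel, map_one]
  have hcomm_iff : ∀ x ∈ K, x ∈ R ↔ ∀ y ∈ K, ρ ⁅x, y⁆ = 1 := by
    intro x hx
    constructor
    · exact hcomm_one x
    · intro h
      refine (hR x).2 ⟨hx, fun y hy => ?_⟩
      have e1 : x * y = ⁅x, y⁆ * (y * x) := by rw [commutatorElement_def]; group
      rw [← map_mul, e1, map_mul, h y hy, one_mul, map_mul]
  have hRK : R ≤ K := fun x hx => ((hR x).1 hx).1
  have hRn : R.Normal := by
    refine ⟨fun x hx g => ?_⟩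
    rw [hcomm_iff _ (hn.conj_mem x (hRK hx) g)]
    intro y hy
    have h1 := hcomm_one x hx (g⁻¹ * y * g⁻¹⁻¹) (hn.conj_mem y hy g⁻¹)
    have e1 : ⁅g * x * g⁻¹, y⁆ = g * ⁅x, g⁻¹ * y * g⁻¹⁻¹⁆ * g⁻¹ := by
      simp only [commutatorElement_def]; group
    rw [e1, map_mul, map_mul, h1, mul_one, ← map_mul, mul_inv_cancel, map_one]
  have hRS : ∀ s : S, ∀ x ∈ R, s • x ∈ R := by
    intro s x hx
    rw [hcomm_iff _ (c.smul_mem s x (hRK hx))]
    intro y hy
    have h1 := hcomm_one x hx (s⁻¹ • y) (c.smul_mem s⁻¹ y hy)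
    have e1 : ⁅s • x, y⁆ = s • ⁅x, s⁻¹ • y⁆ := by
      simp only [commutatorElement_def, smul_mul', smul_inv', smul_inv_smul]
    rw [e1, c.fix _ (c.comm x (hRK hx) _ (c.smul_mem s⁻¹ y hy)), h1]
  have hZR : Z ≤ R := by
    intro z hz
    rw [hcomm_iff z (c.le hz)]
    intro y hy
    rw [commutatorElement_eq_one_iff_mul_comm.2 (hZc z hz y).symm, map_one]
  -- scalars
  have hscal : ∀ z ∈ Z, ∃ a : ℂ, ρ z = a • (1 : (Fin n → ℂ) →ₗ[ℂ] (Fin n → ℂ)) := by
    intro z hz
    apply Cfsg.Agent.CharDeep.IrrEquiv.exists_smul_of_commute ρ hρ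
    intro g
    rw [← map_mul, ← map_mul, hZc z hz]
  have hchar_def : ∀ g, ρ.character g = LinearMap.trace ℂ _ (ρ g) := fun g => rfl
  -- values outside `R`
  have hout : ∀ v ∈ K, v ∉ R → ρ.character v = 0 := by
    intro v hv hvR
    rw [hcomm_iff v hv] at hvR
    push Not at hvR
    obtain ⟨y, hy, hne⟩ := hvR
    obtain ⟨a, ha⟩ := hscal _ (c.comm v hv y hy)
    have h1 : ρ.character (y * v * y⁻¹) = ρ.character v := isIrr_isClassFunction hirr v y
    have e1 : v = ⁅v, y⁆ * (y * v * y⁻¹) := by rw [commutatorElement_def]; group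
    have h2 : ρ.character v = a * ρ.character v := by
      conv_lhs => rw [e1]
      rw [hchar_def, map_mul, ha, smul_mul_assoc, one_mul, map_smul, smul_eq_mul, ← hchar_def, h1]
    have h3 : a ≠ 1 := by
      rintro rfl
      rw [one_smul] at ha
      exact hne ha
    have h4 : (1 - a) * ρ.character v = 0 := by
      rw [sub_mul, one_mul, ← h2, sub_self]
    rcases mul_eq_zero.1 h4 with h5 | h5
    · exact absurd (sub_eq_zero.1 h5).symm h3
    · exact h5
  -- values on `R`
  have hin : ∀ v ∈ V, v ∈ R → ρ.character v = ρ.character 1 := by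
    intro v hv hvR
    obtain ⟨hvK, hvτ⟩ := (hV v).1 hv
    have hFv : F v = 1 := by
      rw [hτK v hvK] at hvτ
      have := mul_eq_right.1 hvτ
      exact this
    have : Finite (IrrCharacter R) := finite_irr
    have : Fintype (IrrCharacter R) := Fintype.ofFinite _
    obtain ⟨m, hm, hm'⟩ := Cfsg.Agent.CharDeep.CliffordCorr.exists_nat_coeffs
      (Cfsg.Agent.Characters.Clifford.isCharacter_restrict R (isIrr_isCharacter hirr))
    have hone : ∀ μ : IrrCharacter R, m μ ≠ 0 → (μ : R → ℂ) ⟨v, hvR⟩ = (μ : R → ℂ) 1 := by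
      intro μ hμ
      have hne : classInner (res R ρ.character) (μ : R → ℂ) ≠ 0 := by
        have := hm' μ
        rw [show res R ρ.character = fun h : R => ρ.character h from rfl, this]
        exact_mod_cast hμ
      obtain ⟨f, hf⟩ := exists_hom_of_constituent R (isIrr_isCharacter hirr) (by
        intro y hy
        have h1 : ⁅R, R⁆ ≤ (MonoidHom.toHomUnits ρ).ker := by
          rw [Subgroup.commutator_le]
          intro a ha b hb
          rw [MonoidHom.mem_ker]
          apply Units.ext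
          exact hcomm_one a ha b (hRK hb)
        have h2 : ρ y = 1 := congrArg Units.val (MonoidHom.mem_ker.1 (h1 hy))
        rw [hchar_def, hchar_def, h2, map_one ρ]) μ.2 hne
      -- invariance of `f` under `S`
      obtain ⟨j, hj⟩ := exists_exp (Nat.card_pos (α := S)).ne' c.cop.symm S
        (fun x => pow_card_eq_one')
      have hinv : ∀ (s : S) (x y : R), (y : G) = s • (x : G) → (μ : R → ℂ) y = (μ : R → ℂ) x := by
        intro s
        apply inv_of_conj hj hRS (μ : R → ℂ) s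
        let a : R ≃* R :=
          { toFun := fun x => ⟨s • (x : G), hRS s x x.2⟩
            invFun := fun x => ⟨s⁻¹ • (x : G), hRS s⁻¹ x x.2⟩
            left_inv := fun x => Subtype.ext (inv_smul_smul s (x : G))
            right_inv := fun x => Subtype.ext (smul_inv_smul s (x : G))
            map_mul' := fun x y => Subtype.ext (smul_mul' s (x : G) (y : G)) }
        have ha : ∀ x : R, ((a x : R) : G) = s • (x : G) := fun x => rfl
        have h1 : IsIrrCharacter R ((μ : R → ℂ) ∘ a) := isIrr_comp a.toMonoidHom a.surjective μ.2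
        have h2 : classInner (fun x : R => ρ.character x) ((μ : R → ℂ) ∘ a) ≠ 0 := by
          have e1 : (fun x : R => ρ.character x) = (fun x : R => ρ.character x) ∘ a := by
            funext x
            show ρ.character x = ρ.character (a x : R)
            rw [ha]
            exact (hχ s x).symm
          rw [e1, classInner_comp_equiv]
          exact hne
        obtain ⟨g, hg⟩ := Cfsg.Agent.Characters.Clifford.exists_conj_of_constituents R hirr μ.2 h1
          hne h2
        obtain ⟨k, hk, g, hgs, rfl⟩ := c.gen g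
        refine ⟨g, hgs, fun x y hxy => ?_⟩
        have h3 := congrFun hg x
        have e1 : ((μ : R → ℂ) ∘ a) x = (μ : R → ℂ) y := by
          show (μ : R → ℂ) (a x) = _
          exact congrArg (μ : R → ℂ) (Subtype.ext (by rw [ha, hxy]))
        rw [← e1, h3]
        obtain ⟨x', hx'⟩ : ∃ x' : R, x' = ⟨g * x * g⁻¹, hRn.conj_mem x x.2 g⟩ := ⟨_, rfl⟩
        rw [← hx']
        have hx'' : (x' : G) = g * x * g⁻¹ := by rw [hx']
        have hmem : ⁅k, (x' : G)⁆ ∈ R := hZR (c.comm k hk x' (hRK x'.2))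
        have e2 : (MulAut.conjNormal (k * g) : MulAut R) x = ⟨_, hmem⟩ * x' := by
          apply Subtype.ext
          rw [MulAut.conjNormal_apply, Subgroup.coe_mul]
          show _ = ⁅k, (x' : G)⁆ * (x' : G)
          rw [hx'', commutatorElement_def]
          group
        show (μ : R → ℂ) ((MulAut.conjNormal (k * g) : MulAut R) x) = _
        rw [e2, hf]
        show ((f (_ * x') : ℂˣ) : ℂ) = _
        rw [map_mul, Units.val_mul]
        have e3 : (μ : R → ℂ) ⟨_, hmem⟩ = (μ : R → ℂ) 1 := by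
          apply constituent_ker (Cfsg.Agent.Characters.Clifford.isCharacter_restrict R
            (isIrr_isCharacter hirr)) μ.2 hne
          show ρ.character ⁅k, (x' : G)⁆ = ρ.character ((1 : R) : G)
          have h5 : ρ ⁅k, (x' : G)⁆ = 1 := by
            have h6 := hcomm_one _ x'.2 k hk
            have h7 : ρ ⁅k, (x' : G)⁆ * ρ ⁅(x' : G), k⁆ = 1 := by
              rw [← map_mul, ← commutatorElement_inv (x' : G) k, inv_mul_cancel, map_one]
            rwa [h6, mul_one] at h7
          rw [hchar_def, hchar_def, h5, Subgroup.coe_one, map_one ρ]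
        rw [hf] at e3
        have e4 : ((f ⟨_, hmem⟩ : ℂˣ) : ℂ) = 1 := by
          have : (fun b : R => (f b : ℂ)) ⟨_, hmem⟩ = (fun b : R => (f b : ℂ)) 1 := e3
          simpa using this
        rw [e4, one_mul]
      have hfinv : ∀ (s : S) (x y : R), (y : G) = s • (x : G) → f y = f x := by
        intro s x y hxy
        have h1 := hinv s x y hxy
        rw [hf] at h1
        exact Units.ext h1
      have h2 := hFμ R hRK hRS f hfinv ⟨v, hvR⟩ hFv
      rw [hf]
      show ((f ⟨v, hvR⟩ : ℂˣ) : ℂ) = ((f 1 : ℂˣ) : ℂ)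
      rw [h2, map_one]
    have e1 := congrFun hm ⟨v, hvR⟩
    have e2 := congrFun hm 1
    simp only [Finset.sum_apply, Pi.smul_apply, smul_eq_mul] at e1 e2
    have e3 : (((1 : R) : R) : G) = 1 := rfl
    rw [e3] at e2
    rw [e1, e2]
    refine Finset.sum_congr rfl fun μ _ => ?_
    by_cases h0 : m μ = 0
    · rw [h0, Nat.cast_zero, zero_mul, zero_mul]
    · rw [hone μ h0]
  -- the trace
  have htr : LinearMap.trace ℂ _ T = ((V.filter (· ∈ R)).card : ℂ) * ρ.character 1 := by
    show LinearMap.trace ℂ _ (∑ v ∈ V, ρ v) = _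
    rw [map_sum, ← Finset.sum_filter_add_sum_filter_not V (· ∈ R)]
    have e1 : ∑ v ∈ V.filter (¬ · ∈ R), LinearMap.trace ℂ _ (ρ v) = 0 := by
      refine Finset.sum_eq_zero fun v hv => ?_
      rw [Finset.mem_filter, hV] at hv
      exact hout v hv.1.1 hv.2
    have e2 : ∑ v ∈ V.filter (· ∈ R), LinearMap.trace ℂ _ (ρ v) =
        ∑ v ∈ V.filter (· ∈ R), ρ.character 1 := by
      refine Finset.sum_congr rfl fun v hv => ?_
      rw [Finset.mem_filter] at hv
      exact hin v hv.1 hv.2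
    rw [e1, e2, add_zero, Finset.sum_const, nsmul_eq_mul]
  have hT0 : T ≠ 0 := by
    intro h
    rw [h, map_zero] at htr
    rcases mul_eq_zero.1 htr.symm with h1 | h1
    · have h2 : (V.filter (· ∈ R)).card ≠ 0 := by
        rw [Finset.card_ne_zero]
        refine ⟨1, ?_⟩
        rw [Finset.mem_filter, hV]
        exact ⟨⟨K.one_mem, by rw [map_one, inv_one]⟩, R.one_mem⟩
      exact h2 (by exact_mod_cast h1)
    · exact isIrr_apply_one_ne_zero hirr h1
  exact char_eq_of_intertwiner ρ hirr τ T hT0 hT g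

/-- **The central case.** -/
theorem Conf.main [Finite S] {K Z : Subgroup G} (c : Conf S K Z) {D : Type*} [Group D] [Fintype D]
    (ι : D →* G) (hι : Function.Injective ι) (hfix : ∀ g : G, (∀ s : S, s • g = g) ↔ ∃ d, ι d = g) :
    (∀ χ : IrrCharacter G, Inv S (χ : G → ℂ) → ∃ β, Cor ι 2 χ β) ∧
    (∀ (χ : IrrCharacter G) (β β' : IrrCharacter D), Inv S (χ : G → ℂ) → Cor ι 2 χ β →
      Cor ι 2 χ β' → β = β') ∧
    (∀ (χ χ' : IrrCharacter G) (β : IrrCharacter D), Inv S (χ : G → ℂ) → Inv S (χ' : G → ℂ) →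
      Cor ι 2 χ β → Cor ι 2 χ' β → χ = χ') ∧
    (∀ β : IrrCharacter D, ∃ χ : IrrCharacter G, Inv S (χ : G → ℂ) ∧ Cor ι 2 χ β) := by
  obtain ⟨M, c, hM⟩ := c.exists_reduced
  obtain ⟨F, hFZ, hFm, hF2, hFs, hFc, hFμ⟩ := c.exists_quad hM
  obtain ⟨τ, hτ, hττ, hτfix, hτs⟩ := c.exists_inv hM F hFZ hFm hF2 hFs hFc
  have hcase : ∀ s : Subgroup.zpowers τ, (s : MulAut G) = 1 ∨ (s : MulAut G) = τ := by
    rintro ⟨s, k, rfl⟩
    have h2 : τ ^ (2 : ℤ) = 1 := by
      ext g
      exact hττ g
    rcases Int.even_or_odd' k with ⟨m, rfl | rfl⟩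
    · left
      show τ ^ (2 * m) = 1
      rw [zpow_mul, h2, one_zpow]
    · right
      show τ ^ (2 * m + 1) = τ
      rw [zpow_add, zpow_mul, h2, one_zpow, one_mul, zpow_one]
  have hsmul : ∀ (s : Subgroup.zpowers τ) (g : G), s • g = (s : MulAut G) g := fun s g => rfl
  let t : Subgroup.zpowers τ := ⟨τ, Subgroup.mem_zpowers τ⟩
  have hp : Fact (Nat.Prime 2) := ⟨Nat.prime_two⟩
  have hset : Setup (Subgroup.zpowers τ) ι 2 := by
    refine ⟨hι, ?_, ?_, ?_⟩
    · intro g
      rw [← hfix, ← hτfix]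
      constructor
      · intro h
        exact h t
      · intro h s
        rw [hsmul]
        rcases hcase s with h1 | h1
        · rw [h1]; rfl
        · rw [h1, h]
    · intro s
      refine ⟨1, ?_⟩
      rw [pow_one]
      apply Subtype.ext
      rw [Subgroup.coe_pow]
      rcases hcase s with h1 | h1
      · rw [h1]; exact one_pow 2
      · rw [h1]
        ext g
        exact hττ g
    · intro h
      have := c.odd
      rw [← Nat.not_even_iff_odd, even_iff_two_dvd] at this
      exact this h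
  have hinv : ∀ χ : IrrCharacter G, Inv S (χ : G → ℂ) → Inv (Subgroup.zpowers τ) (χ : G → ℂ) := by
    intro χ hχ s g
    rw [hsmul]
    rcases hcase s with h1 | h1
    · rw [h1]; rfl
    · rw [h1]
      exact c.tau_of_inv F hFμ hFZ τ hτ hττ χ hχ g
  refine ⟨fun χ _ => exists_cor_beta hset χ, fun χ β β' h hβ hβ' =>
    cor_unique_beta hset (hinv χ h) hβ hβ', fun χ χ' β h h' hβ hβ' =>
    cor_unique_chi hset (hinv χ h) (hinv χ' h') hβ hβ', fun β => ?_⟩
  obtain ⟨χ, hχ, hc⟩ := exists_cor_chi hset β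
  refine ⟨χ, fun s g => ?_, hc⟩
  -- the twist by `s`
  let χs : IrrCharacter G := twist (aut S G s) χ
  have h1 : Inv (Subgroup.zpowers τ) (χs : G → ℂ) := by
    intro u g
    show (χ : G → ℂ) (s • (u • g)) = (χ : G → ℂ) (s • g)
    rw [hsmul]
    rcases hcase u with h1 | h1
    · rw [h1]; rfl
    · rw [h1, ← hτs]
      exact hχ t (s • g)
  have h2 : Cor ι 2 χs β := by
    obtain ⟨m, hm, hm'⟩ := hc
    refine ⟨m, ?_, hm'⟩
    rw [← hm]
    congr 1
    funext d
    show (χ : G → ℂ) (s • ι d) = (χ : G → ℂ) (ι d)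
    rw [(hfix (ι d)).2 ⟨d, rfl⟩ s]
  have h3 := cor_unique_chi hset h1 hχ h2 hc
  have h4 : (χs : G → ℂ) g = (χ : G → ℂ) g := by rw [h3]
  exact h4

end Cfsg.Agent.H596.OddConf
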