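import Cfsg.Agent.H596.CoverCor
import Cfsg.Agent.H596.CoverAct
import Cfsg.Agent.H596.OddCentral
import Cfsg.Agent.H594.GlauUp
import Cfsg.Agent.Blocks.Basic

/-!
# Reduction to the central case by a cover
-/

set_option autoImplicit false

open scoped commutatorElement ComplexConjugate

namespace Cfsg.Agent.H596.CoverRed

open Cfsg Module
open Cfsg.Agent.Characters.Core
open Cfsg.Agent.H593.GlaubermanP (Setup Inv)
open Cfsg.Agent.H595.Solv
open Cfsg.Agent.H595.Fix
open Cfsg.Agent.H596.CoverCor Cfsg.Agent.H596.OddConf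
open Cfsg.Agent.Classification.BGIsometry (classInner_comp')

universe u

/-- The action on a quotient. -/
@[instance_reducible]
noncomputable def quotAct {E S : Type*} [Group E] [Group S] [MulDistribMulAction S E]
    (N : Subgroup E) [N.Normal] (hN : ∀ (s : S), ∀ x ∈ N, s • x ∈ N) :
    MulDistribMulAction S (E ⧸ N) where
  smul s := QuotientGroup.map N N (MulDistribMulAction.toMonoidHom E s) (fun x hx => hN s x hx)
  one_smul x := by
    induction x using QuotientGroup.induction_on with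
    | H x =>
      show (((1 : S) • x : E) : E ⧸ N) = x
      rw [one_smul]
  mul_smul s t x := by
    induction x using QuotientGroup.induction_on with
    | H x =>
      show (((s * t) • x : E) : E ⧸ N) = ((s • t • x : E) : E ⧸ N)
      rw [mul_smul]
  smul_mul s x y := by
    show QuotientGroup.map N N _ _ (x * y) = QuotientGroup.map N N _ _ x * QuotientGroup.map N N _ _ y
    rw [map_mul]
  smul_one s := by
    show QuotientGroup.map N N _ _ 1 = 1
    rw [map_one]

theorem central_scalar {G : Type*} [Group G] {χ : G → ℂ} (hχ : IsIrrCharacter G χ) {z : G}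
    (hz : z ∈ Subgroup.center G) : ∃ a : ℂ, ∀ x, χ (z * x) = a * χ x := by
  obtain ⟨n, ρ, hρ, rfl⟩ := isIrrCharacter_def.1 hχ
  obtain ⟨a, ha⟩ := Cfsg.Agent.CharDeep.IrrEquiv.exists_smul_of_commute ρ hρ (ρ z) (by
    intro g
    rw [← map_mul, ← map_mul, Subgroup.mem_center_iff.1 hz])
  refine ⟨a, fun x => ?_⟩
  show LinearMap.trace ℂ _ (ρ (z * x)) = a * LinearMap.trace ℂ _ (ρ x)
  rw [map_mul, ha, smul_mul_assoc, one_mul, map_smul, smul_eq_mul]

theorem inner_scalar {G : Type*} [Group G] [Fintype G] {f g : G → ℂ} {z : G} {a b : ℂ}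
    (hf : ∀ x, f (z * x) = a * f x) (hg : ∀ x, g (z * x) = b * g x) (h : classInner f g ≠ 0) :
    a * conj b = 1 := by
  have h1 : classInner f g = a * conj b * classInner f g := by
    rw [classInner_def]
    have e1 : ∑ x : G, f x * conj (g x) = ∑ x : G, f (z * x) * conj (g (z * x)) :=
      (Fintype.sum_bijective (fun x => z * x) (Group.mulLeft_bijective z) _ _ fun x => rfl).symm
    have e2 : ∑ x : G, f (z * x) * conj (g (z * x)) = a * conj b * ∑ x : G, f x * conj (g x) := by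
      rw [Finset.mul_sum]
      refine Finset.sum_congr rfl fun x _ => ?_
      rw [hf, hg, map_mul]
      ring
    conv_lhs => rw [e1, e2]
    ring
  have h2 : (1 - a * conj b) * classInner f g = 0 := by
    rw [sub_mul, one_mul, ← h1, sub_self]
  rcases mul_eq_zero.1 h2 with h3 | h3
  · exact (sub_eq_zero.1 h3).symm
  · exact absurd h3 h

/-- Primes dividing the order of an extension by a kernel of known exponent. -/
theorem prime_dvd {E G : Type*} [Group E] [Finite E] [Group G] [Finite G] (p : E →* G) {m : ℕ}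
    (hm : ∀ x, p x = 1 → x ^ m = 1) {r : ℕ} (hr : r.Prime) (h : r ∣ Nat.card E) :
    r ∣ Nat.card G ∨ r ∣ m := by
  have : Fact r.Prime := ⟨hr⟩
  obtain ⟨x, hx⟩ := exists_prime_orderOf_dvd_card' r h
  by_cases h1 : p x = 1
  · right
    rw [← hx]
    exact orderOf_dvd_of_pow_eq_one (hm x h1)
  · left
    have h2 : orderOf (p x) ∣ r := by
      rw [← hx]
      exact orderOf_map_dvd p x
    rcases (Nat.dvd_prime hr).1 h2 with h3 | h3
    · exact absurd (orderOf_eq_one_iff.1 h3) h1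
    · rw [← h3]
      exact orderOf_dvd_natCard _

theorem eq_one_of_smul {Q S : Type*} [Group Q] [Group S] [Finite S] [MulDistribMulAction S Q] {m : ℕ}
    (hm : m.Coprime (Nat.card S)) {s : S} {x z : Q} (h : s • x = z * x) (hz : s • z = z)
    (hzm : z ^ m = 1) : z = 1 := by
  have h1 : ∀ n : ℕ, s ^ n • x = z ^ n * x := by
    intro n
    induction n with
    | zero => rw [pow_zero, pow_zero, one_smul, one_mul]
    | succ n ih => rw [pow_succ', mul_smul, ih, smul_mul', smul_pow', hz, h, ← mul_assoc, ← pow_succ]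
  have h2 := h1 (Nat.card S)
  rw [pow_card_eq_one', one_smul] at h2
  have h3 : z ^ Nat.card S = 1 := mul_eq_right.1 h2.symm
  have h4 : orderOf z ∣ 1 := by
    have h5 := Nat.dvd_gcd (orderOf_dvd_of_pow_eq_one hzm) (orderOf_dvd_of_pow_eq_one h3)
    rwa [hm] at h5
  exact orderOf_eq_one_iff.1 (Nat.dvd_one.1 h4)

/-- **The case of an invariant character of `L`.** -/
theorem main {G : Type u} [Group G] [Fintype G] {S : Type*} [Group S] [Finite S]
    [MulDistribMulAction S G] {D : Type*} [Group D] [Fintype D] (ι : D →* G)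
    (hι : Function.Injective ι) (L K : Subgroup G) [hL : L.Normal] [hK : K.Normal] [Fintype L]
    (hodd : Odd (Nat.card G)) (hcop : (Nat.card G).Coprime (Nat.card S)) (hLK : L ≤ K)
    (hLS : ∀ (s : S), ∀ l ∈ L, s • l ∈ L) (hKS : ∀ (s : S), ∀ k ∈ K, s • k ∈ K)
    (hab : ∀ a ∈ K, ∀ b ∈ K, ⁅a, b⁆ ∈ L) (hfix : ∀ g : G, (∀ s : S, s • g * g⁻¹ ∈ L) ↔ ∃ d, ι d = g)
    (hgen : ∀ g, ∃ k ∈ K, ∃ d, g = k * ι d) (i : L →* D) (hi : ∀ l, ι (i l) = l)
    (φ : IrrCharacter L) (hG : ∀ (g : G) (l : L), (φ : L → ℂ) (MulAut.conjNormal g l) = (φ : L → ℂ) l)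
    (hS : ∀ (s : S) (x y : L), (y : G) = s • (x : G) → (φ : L → ℂ) y = (φ : L → ℂ) x) :
    (∀ χ : IrrCharacter G, Inv S (χ : G → ℂ) →
      classInner (fun l : L => (χ : G → ℂ) l) (φ : L → ℂ) ≠ 0 →
      ∃ ψ : IrrCharacter D, classInner (fun l : L => (ψ : D → ℂ) (i l)) (φ : L → ℂ) ≠ 0 ∧
        Cor ι 2 χ ψ) ∧
    (∀ (χ : IrrCharacter G) (ψ ψ' : IrrCharacter D), Inv S (χ : G → ℂ) →
      classInner (fun l : L => (χ : G → ℂ) l) (φ : L → ℂ) ≠ 0 →
      classInner (fun l : L => (ψ : D → ℂ) (i l)) (φ : L → ℂ) ≠ 0 →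
      classInner (fun l : L => (ψ' : D → ℂ) (i l)) (φ : L → ℂ) ≠ 0 →
      Cor ι 2 χ ψ → Cor ι 2 χ ψ' → ψ = ψ') ∧
    (∀ (χ χ' : IrrCharacter G) (ψ : IrrCharacter D), Inv S (χ : G → ℂ) → Inv S (χ' : G → ℂ) →
      classInner (fun l : L => (χ : G → ℂ) l) (φ : L → ℂ) ≠ 0 →
      classInner (fun l : L => (χ' : G → ℂ) l) (φ : L → ℂ) ≠ 0 →
      classInner (fun l : L => (ψ : D → ℂ) (i l)) (φ : L → ℂ) ≠ 0 →
      Cor ι 2 χ ψ → Cor ι 2 χ' ψ → χ = χ') ∧
    (∀ ψ : IrrCharacter D, classInner (fun l : L => (ψ : D → ℂ) (i l)) (φ : L → ℂ) ≠ 0 →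
      ∃ χ : IrrCharacter G, Inv S (χ : G → ℂ) ∧
        classInner (fun l : L => (χ : G → ℂ) l) (φ : L → ℂ) ≠ 0 ∧ Cor ι 2 χ ψ) := by
  classical
  obtain ⟨φ, hφ⟩ := φ
  obtain ⟨n, ρ, hρ, rfl⟩ := isIrrCharacter_def.1 hφ
  obtain ⟨E, _, _, _, p, σ, j, hp, hpj, hσj, hscal, hpc, hconj, hps, hjs, hfixp, htr, hexp⟩ :=
    CoverAct.exists_cover L ρ hρ hG hLS hS
  have hfE : Fintype E := Fintype.ofFinite E
  set X : E → ℂ := σ.character with hXdef
  have hXj : ∀ l, X (j l) = ρ.character l := fun l => by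
    show LinearMap.trace ℂ _ (σ (j l)) = LinearMap.trace ℂ _ (ρ l)
    rw [hσj]
  have hXcomp : X ∘ j = ρ.character := funext hXj
  have hXchar : IsCharacter E X := ⟨n, σ, rfl⟩
  have hXirr : IsIrrCharacter E X := by
    apply Cfsg.Agent.CharactersDeep.MaxInduced.isIrr_of_comp j hXchar
    rw [hXcomp]; exact hφ
  -- the quotient
  have hN : j.range.Normal := by
    refine ⟨?_⟩
    rintro _ ⟨l, rfl⟩ x
    rw [hconj]
    exact ⟨_, rfl⟩
  have hNS : ∀ (s : S), ∀ x ∈ j.range, s • x ∈ j.range := by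
    rintro s _ ⟨l, rfl⟩
    exact ⟨⟨s • (l : G), hLS s l l.2⟩, (hjs s l _ rfl).symm⟩
  let actQ : MulDistribMulAction S (E ⧸ j.range) := quotAct j.range hNS
  let q : E →* E ⧸ j.range := QuotientGroup.mk' j.range
  have hq : Function.Surjective q := QuotientGroup.mk'_surjective _
  have hqs : ∀ (s : S) (x : E), s • q x = q (s • x) := fun s x => rfl
  have hqj : ∀ l, q (j l) = 1 := fun l => (QuotientGroup.eq_one_iff _).2 ⟨l, rfl⟩
  have hq1 : ∀ x, q x = 1 → ∃ l, x = j l := by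
    intro x hx
    obtain ⟨l, hl⟩ := (QuotientGroup.eq_one_iff x).1 hx
    exact ⟨l, hl.symm⟩
  -- orders
  have hLG : Nat.card L ∣ Nat.card G := Subgroup.card_subgroup_dvd_card L
  have hnL : n ∣ Nat.card G := by
    have h1 := Cfsg.Agent.H593.GlaubermanP.charDegree_dvd hφ
    have h2 : charDegree ρ.character = n := by
      apply Cfsg.Agent.Blocks.Basic.charDegree_of_eq
      rw [Representation.char_one, finrank_fin_fun]
    rw [h2] at h1
    exact h1.trans hLG
  have hcopm : (n * Nat.card L).Coprime (Nat.card S) :=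
    Nat.Coprime.mul_left (Nat.Coprime.coprime_dvd_left hnL hcop)
      (Nat.Coprime.coprime_dvd_left hLG hcop)
  have hprime : ∀ r : ℕ, r.Prime → r ∣ Nat.card (E ⧸ j.range) → r ∣ Nat.card G := by
    intro r hr h
    have h1 : r ∣ Nat.card E := h.trans (Subgroup.card_quotient_dvd_card _)
    rcases prime_dvd p hexp hr h1 with h2 | h2
    · exact h2
    · rcases hr.dvd_mul.1 h2 with h3 | h3
      · exact h3.trans hnL
      · exact h3.trans hLG
  -- fixed points of `S` in the quotient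
  have hmem : ∀ x : E, (∀ s : S, s • q x = q x) ↔ ∃ d, ι d = p x := by
    intro x
    rw [← hfix]
    constructor
    · intro h s
      have h1 : q (s • x * x⁻¹) = 1 := by
        rw [map_mul, ← hqs, h s, map_inv, mul_inv_cancel]
      obtain ⟨l, hl⟩ := hq1 _ h1
      have h2 : s • p x * (p x)⁻¹ = l := by
        rw [← hps, ← map_inv, ← map_mul, hl, hpj]
      rw [h2]
      exact l.2
    · intro h s
      obtain ⟨l, hl⟩ : ∃ l : L, (l : G) = s • p x * (p x)⁻¹ := ⟨⟨_, h s⟩, rfl⟩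
      obtain ⟨z, hz⟩ : ∃ z, z = s • x * x⁻¹ * (j l)⁻¹ := ⟨_, rfl⟩
      have hpz : p z = 1 := by
        rw [hz, map_mul, map_mul, map_inv, map_inv, hps, hpj, hl, mul_inv_cancel]
      have h1 : s • q x = q z * q x := by
        have e1 : s • x = z * x * (x⁻¹ * j l * x) := by rw [hz]; group
        have e2 : x⁻¹ * j l * x = j (MulAut.conjNormal (p x⁻¹) l) := by
          rw [← hconj, inv_inv]
        rw [hqs, e1, map_mul, e2, hqj, mul_one, map_mul]
      have h2 : q z = 1 := eq_one_of_smul (s := s) hcopm h1 (by rw [hqs, hfixp s z hpz])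
        (by rw [← map_pow, hexp z hpz, map_one])
      rw [h1, h2, one_mul]
  -- the central configuration
  have hZc : ∀ z, p z = 1 → ∀ y, y * z = z * y := fun z hz y =>
    Subgroup.mem_center_iff.1 (hpc z hz) y
  have hconf : Conf S ((K.comap p).map q) (p.ker.map q) := by
    refine ⟨?_, ?_, ?_, ?_, ?_, ?_, ?_, ?_, ?_⟩
    · exact (hK.comap p).map q hq
    · rintro s _ ⟨x, hx, rfl⟩
      refine ⟨s • x, ?_, (hqs s x).symm⟩
      show p (s • x) ∈ K
      rw [hps]
      exact hKS s _ hx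
    · apply Subgroup.map_mono
      intro x hx
      show p x ∈ K
      rw [MonoidHom.mem_ker.1 hx]
      exact K.one_mem
    · rintro _ ⟨z, hz, rfl⟩
      rw [Subgroup.mem_center_iff]
      intro y
      obtain ⟨y, rfl⟩ := hq y
      rw [← map_mul, ← map_mul, hZc z hz]
    · rintro _ ⟨z, hz, rfl⟩ s
      rw [hqs, hfixp s z hz]
    · rintro _ ⟨x, hx, rfl⟩ _ ⟨y, hy, rfl⟩
      obtain ⟨l, hl⟩ : ∃ l : L, (l : G) = ⁅p x, p y⁆ := ⟨⟨_, hab _ hx _ hy⟩, rfl⟩
      refine ⟨⁅x, y⁆ * (j l)⁻¹, ?_, ?_⟩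
      · show p _ = 1
        rw [map_mul, map_commutatorElement, map_inv, hpj, hl, mul_inv_cancel]
      · rw [map_mul, map_inv, hqj, inv_one, mul_one, map_commutatorElement]
    · intro y
      obtain ⟨x, rfl⟩ := hq y
      obtain ⟨k, hk, d, hkd⟩ := hgen (p x)
      obtain ⟨y, hy⟩ := hp (ι d)
      refine ⟨q (x * y⁻¹), ⟨x * y⁻¹, ?_, rfl⟩, q y, ?_, ?_⟩
      · show p (x * y⁻¹) ∈ K
        rw [map_mul, map_inv, hy, hkd, mul_inv_cancel_right]
        exact hk
      · rw [hmem]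
        exact ⟨d, hy.symm⟩
      · rw [← map_mul, inv_mul_cancel_right]
    · rw [← Nat.not_even_iff_odd, even_iff_two_dvd]
      intro h
      have := hprime 2 Nat.prime_two h
      rw [← Nat.not_even_iff_odd, even_iff_two_dvd] at hodd
      exact hodd this
    · apply Nat.coprime_of_dvd
      intro r hr h h'
      have h1 := hprime r hr h
      have h2 := Nat.dvd_gcd h1 h'
      rw [hcop] at h2
      exact hr.one_lt.ne' (Nat.dvd_one.1 h2)
  have hfQ : Fintype (E ⧸ j.range) := Fintype.ofFinite _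
  let H : Subgroup (E ⧸ j.range) := fx S (E ⧸ j.range)
  have hfH : Fintype H := Fintype.ofFinite _
  obtain ⟨c1, c2, c3, c4⟩ := hconf.main H.subtype Subtype.val_injective (fun g => by
    constructor
    · intro h
      exact ⟨⟨g, h⟩, rfl⟩
    · rintro ⟨d, rfl⟩
      exact d.2)
  -- the subgroup over `D`
  let ED : Subgroup E := ι.range.comap p
  have hfED : Fintype ED := Fintype.ofFinite _
  have hED : ∀ x, x ∈ ED ↔ ∃ d, ι d = p x := fun x => Iff.rfl
  let pD : ED →* D := ((MonoidHom.ofInjective hι).symm : ι.range →* D).comp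
    ((p.subgroupComap ι.range))
  have hpD : ∀ x : ED, ι (pD x) = p x := by
    intro x
    have h1 := (MonoidHom.ofInjective hι).apply_symm_apply ((p.subgroupComap ι.range) x)
    exact congrArg Subtype.val h1
  let qD : ED →* H :=
    { toFun := fun x => ⟨q x, (hmem x).2 x.2⟩
      map_one' := Subtype.ext (map_one q)
      map_mul' := fun x y => Subtype.ext (map_mul q (x : E) (y : E)) }
  have hqD : ∀ x : ED, ((qD x : H) : E ⧸ j.range) = q x := fun x => rfl
  have hpDs : Function.Surjective pD := by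
    intro d
    obtain ⟨x, hx⟩ := hp (ι d)
    refine ⟨⟨x, d, hx.symm⟩, hι ?_⟩
    rw [hpD, hx]
  have hqDs : Function.Surjective qD := by
    rintro ⟨y, hy⟩
    obtain ⟨x, rfl⟩ := hq y
    exact ⟨⟨x, (hmem x).1 hy⟩, rfl⟩
  have hjED : ∀ l : L, j l ∈ ED := fun l => ⟨i l, by rw [hi, hpj]⟩
  -- irreducibility on the kernels
  let jq : L →* q.ker := j.codRestrict q.ker fun l => MonoidHom.mem_ker.2 (hqj l)
  have hjq : Function.Surjective jq := by
    rintro ⟨x, hx⟩
    obtain ⟨l, rfl⟩ := hq1 x (MonoidHom.mem_ker.1 hx)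
    exact ⟨l, rfl⟩
  have hXN : IsIrrCharacter q.ker (fun x => X x) := by
    apply Cfsg.Agent.CharactersDeep.MaxInduced.isIrr_of_comp jq
      (isCharacter_comp q.ker.subtype hXchar)
    show IsIrrCharacter L (X ∘ j)
    rw [hXcomp]; exact hφ
  have hfq : Fintype q.ker := Fintype.ofFinite _
  let jD : L →* qD.ker := (j.codRestrict ED hjED).codRestrict qD.ker fun l => by
    rw [MonoidHom.mem_ker]
    exact Subtype.ext (hqj l)
  have hjD : Function.Surjective jD := by
    rintro ⟨x, hx⟩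
    obtain ⟨l, hl⟩ := hq1 x (congrArg Subtype.val (MonoidHom.mem_ker.1 hx))
    exact ⟨l, Subtype.ext (Subtype.ext hl.symm)⟩
  let XD : ED → ℂ := fun x => X x
  have hXDchar : IsCharacter ED XD := isCharacter_comp ED.subtype hXchar
  have hXDN : IsIrrCharacter qD.ker (fun x => XD x) := by
    apply Cfsg.Agent.CharactersDeep.MaxInduced.isIrr_of_comp jD
      (isCharacter_comp qD.ker.subtype hXDchar)
    show IsIrrCharacter L (X ∘ j)
    rw [hXcomp]; exact hφ
  have hXDirr : IsIrrCharacter ED XD :=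
    Cfsg.Agent.CharactersDeep.MaxInduced.isIrr_of_comp qD.ker.subtype hXDchar hXDN
  have hfqD : Fintype qD.ker := Fintype.ofFinite _
  -- existence of related characters
  have hexG : ∀ χ : IrrCharacter G, classInner (fun l : L => (χ : G → ℂ) l) ρ.character ≠ 0 →
      ∃ η : IrrCharacter (E ⧸ j.range), Rel p q X (χ : G → ℂ) η.1 := by
    intro χ hχ
    obtain ⟨η, hη, hrel⟩ := exists_rel_of_over hp hq hXirr hXN χ.2 (by
      rw [← classInner_comp' jq hjq]
      have e1 : (fun n : q.ker => (χ : G → ℂ) (p n)) ∘ jq = fun l : L => (χ : G → ℂ) l := by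
        funext l
        show (χ : G → ℂ) (p (j l)) = _
        rw [hpj]
      have e2 : (fun n : q.ker => X n) ∘ jq = ρ.character := hXcomp
      rw [e1, e2]
      exact hχ)
    exact ⟨⟨η, hη⟩, hrel⟩
  have hexD : ∀ ψ : IrrCharacter D, classInner (fun l : L => (ψ : D → ℂ) (i l)) ρ.character ≠ 0 →
      ∃ ξ : IrrCharacter H, Rel pD qD XD (ψ : D → ℂ) ξ.1 := by
    intro ψ hψ
    obtain ⟨ξ, hξ, hrel⟩ := exists_rel_of_over hpDs hqDs hXDirr hXDN ψ.2 (by
      rw [← classInner_comp' jD hjD]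
      have e1 : (fun n : qD.ker => (ψ : D → ℂ) (pD n)) ∘ jD = fun l : L => (ψ : D → ℂ) (i l) := by
        funext l
        show (ψ : D → ℂ) (pD ⟨j l, hjED l⟩) = _
        exact congrArg ψ.1 (hι (by rw [hpD, hi, hpj]))
      have e2 : (fun n : qD.ker => XD n) ∘ jD = ρ.character := hXcomp
      rw [e1, e2]
      exact hψ)
    exact ⟨⟨ξ, hξ⟩, hrel⟩
  -- over `φ`
  have hover : ∀ (χ : IrrCharacter G) (η : IrrCharacter (E ⧸ j.range)),
      Rel p q X (χ : G → ℂ) η.1 →
      classInner (fun l : L => (χ : G → ℂ) l) ρ.character ≠ 0 := by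
    intro χ η hrel
    have e1 : (fun l : L => (χ : G → ℂ) l) = η.1 1 • ρ.character := by
      funext l
      show (χ : G → ℂ) l = η.1 1 * ρ.character l
      rw [← hpj l, hrel, hXj, hqj, mul_comm]
    rw [e1, classInner_smul_left, classInner_irr_self hφ, mul_one]
    exact isIrr_apply_one_ne_zero η.2
  have hoverD : ∀ (ψ : IrrCharacter D) (ξ : IrrCharacter H),
      Rel pD qD XD (ψ : D → ℂ) ξ.1 →
      classInner (fun l : L => (ψ : D → ℂ) (i l)) ρ.character ≠ 0 := by
    intro ψ ξ hrel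
    have e1 : (fun l : L => (ψ : D → ℂ) (i l)) = ξ.1 1 • ρ.character := by
      funext l
      show (ψ : D → ℂ) (i l) = ξ.1 1 * ρ.character l
      have h1 : i l = pD ⟨j l, hjED l⟩ := by
        apply hι
        rw [hpD, hi, hpj]
      have h2 : qD ⟨j l, hjED l⟩ = 1 := Subtype.ext (hqj l)
      rw [h1, hrel, h2, ← hXj, mul_comm]
    rw [e1, classInner_smul_left, classInner_irr_self hφ, mul_one]
    exact isIrr_apply_one_ne_zero ξ.2
  -- invariance
  have hinv : ∀ (χ : IrrCharacter G) (η : IrrCharacter (E ⧸ j.range)),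
      Rel p q X (χ : G → ℂ) η.1 → (Inv S (χ : G → ℂ) ↔ Inv S η.1) := by
    intro χ η hrel
    constructor
    · intro h s y
      let η' : IrrCharacter (E ⧸ j.range) := twist (aut S (E ⧸ j.range) s) η
      have hrel' : Rel p q X (χ : G → ℂ) η'.1 := by
        intro x
        have h1 := hrel (s • x)
        rw [hps, h s, htr] at h1
        exact h1
      have h1 := hrel.classInner hp hq hXirr hXN hrel'
      rw [classInner_irr_self χ.2] at h1
      have h2 : η.1 = η'.1 := by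
        by_contra hne
        rw [classInner_irr_ne η.2 η'.2 hne] at h1
        exact one_ne_zero h1
      have h3 := congrFun h2 y
      exact h3.symm
    · intro h s g
      obtain ⟨x, rfl⟩ := hp g
      rw [← hps, hrel, hrel, htr, ← hqs, h s]
  -- multiplicities
  have hmult : ∀ (χ : IrrCharacter G) (η : IrrCharacter (E ⧸ j.range)) (ψ : IrrCharacter D)
      (ξ : IrrCharacter H), Rel p q X (χ : G → ℂ) η.1 →
      Rel pD qD XD (ψ : D → ℂ) ξ.1 → (Cor ι 2 χ ψ ↔ Cor H.subtype 2 η ξ) := by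
    intro χ η ψ ξ h1 h2
    have h3 : Rel pD qD XD ((χ : G → ℂ) ∘ ι) (η.1 ∘ H.subtype) := by
      intro x
      show (χ : G → ℂ) (ι (pD x)) = X x * η.1 (q x)
      rw [hpD, h1]
    have h4 := h3.classInner hpDs hqDs hXDirr hXDN h2
    unfold Cor
    rw [h4]
  have hne_of_cor : ∀ (η : IrrCharacter (E ⧸ j.range)) (ξ : IrrCharacter H),
      Cor H.subtype 2 η ξ → classInner (η.1 ∘ H.subtype) ξ.1 ≠ 0 := by
    rintro η ξ ⟨m, hm, hm'⟩ h0
    rw [h0] at hm
    apply hm'
    have : m = 0 := by exact_mod_cast hm.symm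
    rw [this]
    exact dvd_zero 2
  -- the scalars
  have hlam : ∀ (η : IrrCharacter (E ⧸ j.range)) (ξ : IrrCharacter H), Cor H.subtype 2 η ξ →
      ∀ z : ED, p z = 1 → ∃ a b : ℂ, a * conj b = 1 ∧ (X z * η.1 (q z) = X 1 * η.1 1 ↔ a = 1) ∧
        (XD z * ξ.1 (qD z) = XD 1 * ξ.1 1 ↔ b = 1) := by
    intro η ξ hc z hz
    obtain ⟨a, ha⟩ := central_scalar hXirr (hpc z hz)
    obtain ⟨b, hb⟩ := central_scalar η.2 (z := q z) (by
      rw [Subgroup.mem_center_iff]
      intro y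
      obtain ⟨y, rfl⟩ := hq y
      rw [← map_mul, ← map_mul, hZc z hz])
    obtain ⟨b', hb'⟩ := central_scalar ξ.2 (z := qD z) (by
      rw [Subgroup.mem_center_iff]
      intro y
      obtain ⟨y, rfl⟩ := hqDs y
      rw [← map_mul, ← map_mul]
      congr 1
      exact Subtype.ext (hZc z hz y))
    have h1 : classInner (fun x : ED => XD x * (η.1 ∘ H.subtype) (qD x))
        (fun x : ED => XD x * ξ.1 (qD x)) ≠ 0 := by
      rw [classInner_mul hqDs hXDirr hXDN]
      exact hne_of_cor η ξ hc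
    have h2 := inner_scalar (z := z) (a := a * b) (b := a * b') (by
      intro x
      show X (z * x) * η.1 (q (z * x)) = a * b * (X x * η.1 (q x))
      rw [ha, map_mul, hb]
      ring) (by
      intro x
      show X (z * x) * ξ.1 (qD (z * x)) = a * b' * (X x * ξ.1 (qD x))
      rw [ha, map_mul, hb']
      ring) h1
    have hX1 : X 1 * η.1 1 ≠ 0 :=
      mul_ne_zero (isIrr_apply_one_ne_zero hXirr) (isIrr_apply_one_ne_zero η.2)
    have hX1' : X 1 * ξ.1 1 ≠ 0 :=
      mul_ne_zero (isIrr_apply_one_ne_zero hXirr) (isIrr_apply_one_ne_zero ξ.2)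
    refine ⟨a * b, a * b', h2, ?_, ?_⟩
    · have e1 : X z * η.1 (q z) = a * b * (X 1 * η.1 1) := by
        have h3 := ha 1
        have h4 := hb 1
        rw [mul_one] at h3 h4
        rw [h3, h4]
        ring
      rw [e1]
      exact mul_eq_right₀ hX1
    · have e1 : XD z * ξ.1 (qD z) = a * b' * (XD 1 * ξ.1 1) := by
        have h3 := ha 1
        have h4 := hb' 1
        rw [mul_one] at h3 h4
        show X z * _ = a * b' * (X 1 * _)
        rw [h3, h4]
        ring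
      rw [e1]
      exact mul_eq_right₀ hX1'
  have hdown : ∀ (χ : IrrCharacter G) (η : IrrCharacter (E ⧸ j.range)) (ξ : IrrCharacter H),
      Rel p q X (χ : G → ℂ) η.1 → Cor H.subtype 2 η ξ →
      ∃ ψ : IrrCharacter D, Rel pD qD XD (ψ : D → ℂ) ξ.1 := by
    intro χ η ξ hrel hc
    obtain ⟨ψ, hψ, hψ'⟩ := exists_rel_of_ker hpDs hqDs hXDirr hXDN ξ.2 (by
      intro z hz
      have hz' : p z = 1 := by rw [← hpD, hz, map_one]
      obtain ⟨a, b, hab', h1, h2⟩ := hlam η ξ hc z hz'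
      rw [h2]
      have h3 : a = 1 := by
        rw [← h1]
        have e1 := hrel z
        have e2 := hrel 1
        rw [hz'] at e1
        rw [map_one, map_one] at e2
        rw [← e1, e2]
      rw [h3, one_mul] at hab'
      exact (map_eq_one_iff _ (starRingEnd ℂ).injective).1 hab')
    exact ⟨⟨ψ, hψ⟩, hψ'⟩
  have hup : ∀ (ψ : IrrCharacter D) (η : IrrCharacter (E ⧸ j.range)) (ξ : IrrCharacter H),
      Rel pD qD XD (ψ : D → ℂ) ξ.1 → Cor H.subtype 2 η ξ →
      ∃ χ : IrrCharacter G, Rel p q X (χ : G → ℂ) η.1 := by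
    intro ψ η ξ hrel hc
    obtain ⟨χ, hχ, hχ'⟩ := exists_rel_of_ker hp hq hXirr hXN η.2 (by
      intro z hz
      have hzED : z ∈ ED := ⟨1, by rw [map_one, hz]⟩
      obtain ⟨a, b, hab', h1, h2⟩ := hlam η ξ hc ⟨z, hzED⟩ hz
      rw [h1]
      have h3 : b = 1 := by
        rw [← h2]
        have e1 := hrel ⟨z, hzED⟩
        have e2 := hrel 1
        have e3 : pD ⟨z, hzED⟩ = 1 := hι (by rw [hpD, map_one]; exact hz)
        rw [e3] at e1
        rw [map_one, map_one] at e2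
        rw [← e1, e2]
      rw [h3, map_one, mul_one] at hab'
      exact hab')
    exact ⟨⟨χ, hχ⟩, hχ'⟩
  refine ⟨?_, ?_, ?_, ?_⟩
  · intro χ hχ hne
    obtain ⟨η, hη⟩ := hexG χ hne
    obtain ⟨ξ, hξ⟩ := c1 η ((hinv χ η hη).1 hχ)
    obtain ⟨ψ, hψ⟩ := hdown χ η ξ hη hξ
    exact ⟨ψ, hoverD ψ ξ hψ, (hmult χ η ψ ξ hη hψ).2 hξ⟩
  · intro χ ψ ψ' hχ hne hneψ hneψ' hcψ hcψ'
    obtain ⟨η, hη⟩ := hexG χ hne
    obtain ⟨ξ, hξ⟩ := hexD ψ hneψ
    obtain ⟨ξ', hξ'⟩ := hexD ψ' hneψ'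
    have h1 := c2 η ξ ξ' ((hinv χ η hη).1 hχ) ((hmult χ η ψ ξ hη hξ).1 hcψ)
      ((hmult χ η ψ' ξ' hη hξ').1 hcψ')
    rw [← h1] at hξ'
    apply Subtype.ext
    funext d
    obtain ⟨x, rfl⟩ := hpDs d
    rw [hξ x, hξ' x]
  · intro χ χ' ψ hχ hχ' hne hne' hneψ hc hc'
    obtain ⟨η, hη⟩ := hexG χ hne
    obtain ⟨η', hη'⟩ := hexG χ' hne'
    obtain ⟨ξ, hξ⟩ := hexD ψ hneψ
    have h1 := c3 η η' ξ ((hinv χ η hη).1 hχ) ((hinv χ' η' hη').1 hχ')
      ((hmult χ η ψ ξ hη hξ).1 hc) ((hmult χ' η' ψ ξ hη' hξ).1 hc')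
    rw [← h1] at hη'
    apply Subtype.ext
    funext g
    obtain ⟨x, rfl⟩ := hp g
    rw [hη x, hη' x]
  · intro ψ hne
    obtain ⟨ξ, hξ⟩ := hexD ψ hne
    obtain ⟨η, hη, hc⟩ := c4 ξ
    obtain ⟨χ, hχ⟩ := hup ψ η ξ hξ hc
    exact ⟨χ, (hinv χ η hχ).2 hη, hover χ η hχ, (hmult χ η ψ ξ hχ hξ).2 hc⟩

end Cfsg.Agent.H596.CoverRed
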