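import Cfsg.Agent.H596.BaerTrace
import Cfsg.Agent.Lib.CoprimeAbelian

/-!
# Central configurations

`S` acts on the finite group `G` of odd order, with coprime orders; `K` is a normal `S`-invariant
subgroup, with `⁅K, K⁆ ≤ Z`, where `Z ≤ K` is a central subgroup of `G` fixed by `S`; and `G` is the
product of `K` and the fixed points of `S`.
-/

set_option autoImplicit false

open scoped commutatorElement

namespace Cfsg.Agent.H596.OddConf

open Cfsg.Agent.H596.BaerTrace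

variable {G : Type*} [Group G] {S : Type*} [Group S] [MulDistribMulAction S G]

/-- A central configuration. -/
structure Conf (S : Type*) [Group S] [MulDistribMulAction S G] (K Z : Subgroup G) : Prop where
  normal : K.Normal
  smul_mem : ∀ (s : S), ∀ k ∈ K, s • k ∈ K
  le : Z ≤ K
  center : Z ≤ Subgroup.center G
  fix : ∀ z ∈ Z, ∀ s : S, s • z = z
  comm : ∀ a ∈ K, ∀ b ∈ K, ⁅a, b⁆ ∈ Z
  gen : ∀ g, ∃ k ∈ K, ∃ h, (∀ s : S, s • h = h) ∧ g = k * h
  odd : Odd (Nat.card G)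
  cop : (Nat.card G).Coprime (Nat.card S)

/-- Exponents inverting `m` modulo `n`. -/
theorem exists_exp {n m : ℕ} (hn : n ≠ 0) (h : n.Coprime m) (W : Type*) [Group W]
    (hW : ∀ x : W, x ^ n = 1) : ∃ j : ℕ, ∀ x : W, x ^ (m * j) = x := by
  rcases Nat.lt_or_ge 1 n with h1 | h1
  · obtain ⟨j, -, hj⟩ := Nat.exists_mul_mod_eq_one_of_coprime h.symm h1
    refine ⟨j, fun x => ?_⟩
    have h2 := Nat.div_add_mod (m * j) n
    rw [hj] at h2
    rw [← h2, pow_add, pow_mul, hW, one_pow, one_mul, pow_one]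
  · have h2 : n = 1 := by omega
    subst h2
    refine ⟨0, fun x => ?_⟩
    have := hW x
    rw [pow_one] at this
    rw [this, one_pow]

/-- The trace on `K`, as a function on `K` with values in `G`. -/
theorem Conf.exists_trace [Finite G] [Finite S] {K Z : Subgroup G} (c : Conf S K Z) :
    ∃ (P : G → G) (h j : ℕ), (∀ x : G, x ^ (2 * h) = x) ∧ (∀ x : G, x ^ (Nat.card S * j) = x) ∧
      (∀ x ∈ K, P x ∈ K) ∧
      (∀ x ∈ K, ∀ s : S, s • P x = P x) ∧ (∀ x ∈ K, ∀ s : S, P (s • x) = P x) ∧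
      (∀ g : G, (∀ s : S, s • g = g) → ∀ x ∈ K, P (g * x * g⁻¹) = g * P x * g⁻¹) ∧
      (∀ x ∈ K, (∀ s : S, s • x = x) → P x = x ^ Nat.card S) ∧
      (∀ x ∈ K, ∀ y ∈ K,
        P (x * y) = P x * P y * ⁅P y, P x⁆ ^ h * ⁅x, y⁆ ^ (h * Nat.card S)) ∧
      (∀ (A : Type) [CommGroup A] (R : Subgroup G), R ≤ K → (∀ (s : S), ∀ x ∈ R, s • x ∈ R) →
        ∀ μ : R →* A, (∀ (s : S) (x y : R), (y : G) = s • (x : G) → μ y = μ x) →
          ∀ (x : R), ∃ hx : P x ∈ R, μ ⟨P x, hx⟩ = μ x ^ Nat.card S) := by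
  classical
  have hn := c.normal
  let act : MulDistribMulAction S K :=
    { smul := fun s k => ⟨s • (k : G), c.smul_mem s k k.2⟩
      one_smul := fun k => Subtype.ext (one_smul S (k : G))
      mul_smul := fun s t k => Subtype.ext (mul_smul s t (k : G))
      smul_mul := fun s x y => Subtype.ext (smul_mul' s (x : G) (y : G))
      smul_one := fun s => Subtype.ext (smul_one s) }
  have hact : ∀ (s : S) (k : K), ((s • k : K) : G) = s • (k : G) := fun s k => rfl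
  have hodd : Odd (Nat.card K) := by
    obtain ⟨m, hm⟩ := Subgroup.card_subgroup_dvd_card K
    have h1 := c.odd
    rw [hm] at h1
    exact (Nat.odd_mul.1 h1).1
  have hc : ∀ x y : K, ⁅x, y⁆ ∈ Subgroup.center K := by
    intro x y
    rw [Subgroup.mem_center_iff]
    intro z
    apply Subtype.ext
    have h1 := Subgroup.mem_center_iff.1 (c.center (c.comm x x.2 y y.2)) (z : G)
    exact h1
  obtain ⟨P, h, hh, h1, h2, h3, h4, h5, h6⟩ := BaerTrace.exists_trace K hodd hc S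
  obtain ⟨h', hh'⟩ : ∃ h' : ℕ, ∀ x : G, x ^ (2 * h') = x := by
    obtain ⟨k, hk⟩ := c.odd
    refine ⟨k + 1, fun x => ?_⟩
    have h1 : 2 * (k + 1) = Nat.card G + 1 := by rw [hk]; ring
    rw [h1, pow_succ, pow_card_eq_one', one_mul]
  obtain ⟨j, hj⟩ := exists_exp (Nat.card_pos (α := G)).ne' c.cop G (fun x => pow_card_eq_one')
  -- the exponents agree on `K`
  have hK : ∀ x : K, x ^ h = x ^ h' := by
    intro x
    have e1 : (x : G) ^ (2 * h') = x := hh' x
    have e2 : x ^ (2 * h') = x := Subtype.ext (by rw [Subgroup.coe_pow]; exact e1)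
    calc x ^ h = (x ^ (2 * h')) ^ h := by rw [e2]
      _ = (x ^ (2 * h)) ^ h' := by rw [← pow_mul, ← pow_mul]; congr 1; ring
      _ = x ^ h' := by rw [hh]
  let Q : G → G := fun x => if hx : x ∈ K then (P ⟨x, hx⟩ : K) else 1
  have hQ : ∀ (x : K), Q x = P x := fun x => by
    show (if hx : (x : G) ∈ K then ((P ⟨x, hx⟩ : K) : G) else 1) = _
    rw [dif_pos x.2]
  have hfix : ∀ (x : K) (s : S), s • x = x ↔ s • (x : G) = x := by
    intro x s
    rw [← hact, Subtype.ext_iff]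
  refine ⟨Q, h', j, hh', hj, ?_, ?_, ?_, ?_, ?_, ?_, ?_⟩
  · intro x hx
    lift x to K using hx
    rw [hQ]; exact (P x).2
  · intro x hx s
    lift x to K using hx
    rw [hQ, ← hact, h1]
  · intro x hx s
    lift x to K using hx
    rw [hQ, ← hact, hQ, h2]
  · intro g hg x hx
    lift x to K using hx
    have e1 : g * (x : G) * g⁻¹ = (MulAut.conjNormal g x : K) := (MulAut.conjNormal_apply g x).symm
    rw [hQ, e1, hQ]
    have e2 := h3 (MulAut.conjNormal g : MulAut K).toMonoidHom (by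
      intro s y
      apply Subtype.ext
      show ((MulAut.conjNormal g (s • y) : K) : G) = s • ((MulAut.conjNormal g y : K) : G)
      rw [MulAut.conjNormal_apply, MulAut.conjNormal_apply, hact, smul_mul', smul_mul', smul_inv',
        hg]) x
    have e3 := congrArg (fun y : K => (y : G)) e2
    refine e3.trans ?_
    exact MulAut.conjNormal_apply g (P x)
  · intro x hx hs
    lift x to K using hx
    rw [hQ, h4 x fun s => (hfix x s).2 (hs s), Subgroup.coe_pow]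
  · intro x hx y hy
    lift x to K using hx
    lift y to K using hy
    have e1 : ∀ s : S, s • ⁅x, y⁆ = ⁅x, y⁆ := by
      intro s
      rw [hfix]
      exact c.fix _ (c.comm x x.2 y y.2) s
    have e2 := h5 x y e1
    rw [pow_mul, hK, hK, ← pow_mul] at e2
    rw [hQ, hQ, ← Subgroup.coe_mul, hQ, e2]
    simp only [Subgroup.coe_mul, Subgroup.coe_pow, commutatorElement_def, Subgroup.coe_inv]
  · intro A _ R hR hRS μ hμ x
    let R' : Subgroup K := R.subgroupOf K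
    let i : R' →* R := (Subgroup.subgroupOfEquivOfLe hR).toMonoidHom
    have hi : ∀ y : R', ((i y : R) : G) = ((y : K) : G) := fun y => rfl
    obtain ⟨hx, hx'⟩ := h6 A R' (by
      intro s y hy
      exact hRS s y hy) (μ.comp i) (by
      intro s y z hyz
      refine hμ s (i y) (i z) ?_
      rw [hi, hi, hyz, hact]) ⟨⟨x, hR x.2⟩, x.2⟩
    have e1 : Q x = P ⟨x, hR x.2⟩ := hQ ⟨x, hR x.2⟩
    have e2 : Q x ∈ R := by
      rw [e1]; exact hx
    refine ⟨e2, ?_⟩
    have e3 : μ ⟨Q x, e2⟩ = (μ.comp i) ⟨P ⟨x, hR x.2⟩, hx⟩ := by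
      show _ = μ (i _)
      congr 1
      apply Subtype.ext
      rw [hi]
      exact e1
    rw [e3, hx']
    rfl

theorem commutator_pow_mem {Z : Subgroup G} {a : G} (ha : a ∈ Z) (n : ℕ) : a ^ n ∈ Z :=
  Z.pow_mem ha n

/-- Reduction to the case that the fixed points of `S` in `K` lie in `Z`. -/
theorem Conf.exists_reduced [Finite G] [Finite S] {K Z : Subgroup G} (c : Conf S K Z) :
    ∃ M : Subgroup G, Conf S M Z ∧ ∀ x ∈ M, (∀ s : S, s • x = x) → x ∈ Z := by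
  have hn := c.normal
  obtain ⟨P, h, j, hh, hj, hPK, hPs, hsP, hPc, hPf, hPm, -⟩ := c.exists_trace
  have hZc : ∀ z ∈ Z, ∀ g : G, g * z = z * g := fun z hz g =>
    Subgroup.mem_center_iff.1 (c.center hz) g
  have hcomm1 : ∀ z ∈ Z, ∀ g : G, ⁅z, g⁆ = 1 := fun z hz g =>
    commutatorElement_eq_one_iff_mul_comm.2 (hZc z hz g).symm
  have hcomm2 : ∀ z ∈ Z, ∀ g : G, ⁅g, z⁆ = 1 := fun z hz g =>
    commutatorElement_eq_one_iff_mul_comm.2 (hZc z hz g)
  have hP1 : P 1 = 1 := by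
    rw [hPf 1 K.one_mem fun s => smul_one s, one_pow]
  let M : Subgroup G :=
    { carrier := {x | x ∈ K ∧ P x ∈ Z}
      mul_mem' := by
        rintro x y ⟨hx, hx'⟩ ⟨hy, hy'⟩
        refine ⟨K.mul_mem hx hy, ?_⟩
        rw [hPm x hx y hy, hcomm1 _ hy', one_pow, mul_one]
        exact Z.mul_mem (Z.mul_mem hx' hy') (Z.pow_mem (c.comm x hx y hy) _)
      one_mem' := ⟨K.one_mem, by rw [hP1]; exact Z.one_mem⟩
      inv_mem' := by
        rintro x ⟨hx, hx'⟩
        refine ⟨K.inv_mem hx, ?_⟩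
        have h1 := hPm x hx x⁻¹ (K.inv_mem hx)
        rw [mul_inv_cancel, hP1, hcomm2 _ hx', one_pow, mul_one,
          commutatorElement_eq_one_iff_mul_comm.2 (by rw [mul_inv_cancel, inv_mul_cancel]), one_pow,
          mul_one] at h1
        rw [eq_inv_of_mul_eq_one_right h1.symm]
        exact Z.inv_mem hx' }
  have hM : ∀ x, x ∈ M ↔ x ∈ K ∧ P x ∈ Z := fun x => Iff.rfl
  refine ⟨M, ⟨?_, ?_, ?_, c.center, c.fix, ?_, ?_, c.odd, c.cop⟩, ?_⟩
  · refine ⟨fun x hx g => ?_⟩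
    obtain ⟨hx, hx'⟩ := (hM x).1 hx
    obtain ⟨k, hk, g, hg, rfl⟩ := c.gen g
    have e0 : ∀ y ∈ M, k * y * k⁻¹ ∈ M := by
      intro y hy
      obtain ⟨hy, hy'⟩ := (hM y).1 hy
      have e1 : k * y * k⁻¹ = ⁅k, y⁆ * y := by rw [commutatorElement_def]; group
      have e2 := c.comm k hk y hy
      have e3 := c.le e2
      rw [e1, hM]
      refine ⟨K.mul_mem e3 hy, ?_⟩
      rw [hPm _ e3 y hy, hcomm1 _ e2, one_pow, mul_one, hPf _ e3 (c.fix _ e2), hcomm1 _ hy',
        one_pow, mul_one]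
      exact Z.mul_mem (Z.pow_mem e2 _) hy'
    have e1 : k * g * x * (k * g)⁻¹ = k * (g * x * g⁻¹) * k⁻¹ := by group
    rw [e1]
    apply e0
    rw [hM, hPc g hg x hx]
    refine ⟨hn.conj_mem x hx g, ?_⟩
    rw [hZc _ hx', mul_inv_cancel_right]
    exact hx'
  · intro s x hx
    obtain ⟨hx, hx'⟩ := (hM x).1 hx
    rw [hM, hsP x hx]
    exact ⟨c.smul_mem s x hx, hx'⟩
  · intro z hz
    rw [hM, hPf z (c.le hz) (c.fix z hz)]
    exact ⟨c.le hz, Z.pow_mem hz _⟩
  · intro a ha b hb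
    exact c.comm a ((hM a).1 ha).1 b ((hM b).1 hb).1
  · intro g
    obtain ⟨k, hk, g, hg, rfl⟩ := c.gen g
    have hf : ∀ s : S, s • (P k ^ j) = P k ^ j := fun s => by rw [smul_pow', hPs k hk]
    have hkj : P k ^ j ∈ K := K.pow_mem (hPK k hk) _
    refine ⟨k * (P k ^ j)⁻¹, ?_, P k ^ j * g, ?_, by group⟩
    · rw [hM]
      refine ⟨K.mul_mem hk (K.inv_mem hkj), ?_⟩
      have e1 : P (P k ^ j)⁻¹ = (P k)⁻¹ := by
        rw [hPf _ (K.inv_mem hkj) (fun s => by rw [smul_inv', hf]), inv_pow, ← pow_mul,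
          mul_comm j, hj]
      rw [hPm _ hk _ (K.inv_mem hkj), e1, mul_inv_cancel, one_mul,
        commutatorElement_eq_one_iff_mul_comm.2 (by rw [mul_inv_cancel, inv_mul_cancel]), one_pow,
        one_mul]
      exact Z.pow_mem (c.comm _ hk _ (K.inv_mem hkj)) _
    · intro s
      rw [smul_mul', hf, hg]
  · intro x hx hs
    obtain ⟨hx, hx'⟩ := (hM x).1 hx
    rw [hPf x hx hs] at hx'
    rw [← hj x, pow_mul]
    exact Z.pow_mem hx' _

/-- The quadratic map of a reduced central configuration. -/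
theorem Conf.exists_quad [Finite G] [Finite S] {K Z : Subgroup G} (c : Conf S K Z)
    (hK : ∀ x ∈ K, (∀ s : S, s • x = x) → x ∈ Z) :
    ∃ F : G → G, (∀ x ∈ K, F x ∈ Z) ∧ (∀ x ∈ K, ∀ y ∈ K, F (x * y) = F x * F y * ⁅x, y⁆) ∧
      (∀ z ∈ Z, F z = z * z) ∧ (∀ x ∈ K, ∀ s : S, F (s • x) = F x) ∧
      (∀ g : G, (∀ s : S, s • g = g) → ∀ x ∈ K, F (g * x * g⁻¹) = F x) ∧
      (∀ (R : Subgroup G), R ≤ K → (∀ (s : S), ∀ x ∈ R, s • x ∈ R) →
        ∀ μ : R →* ℂˣ, (∀ (s : S) (x y : R), (y : G) = s • (x : G) → μ y = μ x) →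
          ∀ (x : R), F x = 1 → μ x = 1) := by
  have hn := c.normal
  obtain ⟨P, h, j, hh, hj, hPK, hPs, hsP, hPc, hPf, hPm, hPμ⟩ := c.exists_trace
  have hZc : ∀ z ∈ Z, ∀ g : G, g * z = z * g := fun z hz g =>
    Subgroup.mem_center_iff.1 (c.center hz) g
  have hcomm1 : ∀ z ∈ Z, ∀ g : G, ⁅z, g⁆ = 1 := fun z hz g =>
    commutatorElement_eq_one_iff_mul_comm.2 (hZc z hz g).symm
  have hPZ : ∀ x ∈ K, P x ∈ Z := fun x hx => hK _ (hPK x hx) (hPs x hx)
  refine ⟨fun x => P x ^ (2 * j), ?_, ?_, ?_, ?_, ?_, ?_⟩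
  · intro x hx
    exact Z.pow_mem (hPZ x hx) _
  · intro x hx y hy
    have e1 := c.comm x hx y hy
    show P (x * y) ^ (2 * j) = P x ^ (2 * j) * P y ^ (2 * j) * ⁅x, y⁆
    rw [hPm x hx y hy, hcomm1 _ (hPZ y hy), one_pow, mul_one,
      (show Commute (P x * P y) (⁅x, y⁆ ^ (h * Nat.card S)) from hZc _ (Z.pow_mem e1 _) _).mul_pow,
      (show Commute (P x) (P y) from hZc _ (hPZ y hy) _).mul_pow, ← pow_mul]
    congr 1
    rw [show h * Nat.card S * (2 * j) = (Nat.card S * j) * (2 * h) by ring, pow_mul, hj, hh]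
  · intro z hz
    show P z ^ (2 * j) = z * z
    rw [hPf z (c.le hz) (c.fix z hz), ← pow_mul, show Nat.card S * (2 * j) = Nat.card S * j * 2 by ring,
      pow_mul, hj, pow_two]
  · intro x hx s
    show P (s • x) ^ (2 * j) = P x ^ (2 * j)
    rw [hsP x hx]
  · intro g hg x hx
    show P (g * x * g⁻¹) ^ (2 * j) = P x ^ (2 * j)
    rw [hPc g hg x hx, hZc _ (hPZ x hx), mul_inv_cancel_right]
  · intro R hR hRS μ hμ x hx
    obtain ⟨h1, h2⟩ := hPμ ℂˣ R hR hRS μ hμ x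
    have h3 : P x = 1 := by
      have e1 : P x ^ (2 * j) = 1 := hx
      have e2 : P x ^ 2 = 1 := by
        rw [← hj (P x ^ 2), ← pow_mul, show 2 * (Nat.card S * j) = 2 * j * Nat.card S by ring, pow_mul,
          e1, one_pow]
      rw [← hh (P x), pow_mul, e2, one_pow]
    have h4 : μ ⟨P x, h1⟩ = 1 := by
      rw [← map_one μ]
      congr 1
      exact Subtype.ext h3
    rw [h4] at h2
    have h5 : x ^ (Nat.card S * j) = x := Subtype.ext (by rw [Subgroup.coe_pow]; exact hj x)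
    rw [← h5, map_pow, pow_mul, ← h2, one_pow]

/-- The involutory automorphism of a reduced central configuration. -/
theorem Conf.exists_inv [Finite G] {K Z : Subgroup G} (c : Conf S K Z)
    (hK : ∀ x ∈ K, (∀ s : S, s • x = x) → x ∈ Z) (F : G → G) (hFZ : ∀ x ∈ K, F x ∈ Z)
    (hFm : ∀ x ∈ K, ∀ y ∈ K, F (x * y) = F x * F y * ⁅x, y⁆) (hF2 : ∀ z ∈ Z, F z = z * z)
    (hFs : ∀ x ∈ K, ∀ s : S, F (s • x) = F x)
    (hFc : ∀ g : G, (∀ s : S, s • g = g) → ∀ x ∈ K, F (g * x * g⁻¹) = F x) :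
    ∃ τ : MulAut G, (∀ k ∈ K, ∀ g, (∀ s : S, s • g = g) → τ (k * g) = F k * k⁻¹ * g) ∧
      (∀ g, τ (τ g) = g) ∧ (∀ g, τ g = g ↔ ∀ s : S, s • g = g) ∧
      ∀ (s : S) g, τ (s • g) = s • τ g := by
  have hn := c.normal
  have hZc : ∀ z ∈ Z, ∀ g : G, g * z = z * g := fun z hz g =>
    Subgroup.mem_center_iff.1 (c.center hz) g
  have hF1 : F 1 = 1 := by rw [hF2 1 Z.one_mem, mul_one]
  have hFinv : ∀ x ∈ K, F x⁻¹ = (F x)⁻¹ := by
    intro x hx
    have h1 := hFm x hx x⁻¹ (K.inv_mem hx)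
    rw [mul_inv_cancel, hF1,
      commutatorElement_eq_one_iff_mul_comm.2 (by rw [mul_inv_cancel, inv_mul_cancel]), mul_one] at h1
    exact eq_inv_of_mul_eq_one_right h1.symm
  choose kk hkk hh hhh hgen using c.gen
  let T : G → G := fun g => F (kk g) * (kk g)⁻¹ * hh g
  have hT : ∀ k ∈ K, ∀ g, (∀ s : S, s • g = g) → T (k * g) = F k * k⁻¹ * g := by
    intro k hk g hg
    -- two decompositions
    obtain ⟨k', hk', g', hg', e⟩ : ∃ k', k' ∈ K ∧ ∃ g', (∀ s : S, s • g' = g') ∧ k * g = k' * g' ∧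
        T (k * g) = F k' * k'⁻¹ * g' := ⟨kk (k * g), hkk _, hh (k * g), hhh _, hgen _, rfl⟩
    obtain ⟨e1, e2⟩ := e
    rw [e2]
    have h1 : k'⁻¹ * k = g' * g⁻¹ := by
      rw [inv_mul_eq_iff_eq_mul, ← mul_assoc, ← e1, mul_inv_cancel_right]
    have h2 : k'⁻¹ * k ∈ Z := by
      apply hK _ (K.mul_mem (K.inv_mem hk') hk)
      intro s
      rw [h1, smul_mul', smul_inv', hg, hg']
    obtain ⟨z, hz⟩ : ∃ z, z = k'⁻¹ * k := ⟨_, rfl⟩
    rw [← hz] at h1 h2
    have h3 : k = k' * z := by rw [hz]; group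
    have h4 : g' = z * g := by rw [h1]; group
    rw [h3, h4, hFm k' hk' z (c.le h2), hF2 z h2,
      commutatorElement_eq_one_iff_mul_comm.2 (hZc z h2 k'), mul_one, mul_inv_rev]
    calc F k' * k'⁻¹ * (z * g) = F k' * (k'⁻¹ * z) * g := by group
      _ = F k' * (z * k'⁻¹) * g := by rw [hZc z h2]
      _ = F k' * (z * z) * (z⁻¹ * k'⁻¹) * g := by group
  have hmul : ∀ a b, T (a * b) = T a * T b := by
    intro a b
    obtain ⟨k, hk, g, hg, rfl⟩ := c.gen a
    obtain ⟨k', hk', g', hg', rfl⟩ := c.gen b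
    have e1 : k * g * (k' * g') = (k * (g * k' * g⁻¹)) * (g * g') := by group
    have e2 : ∀ s : S, s • (g * g') = g * g' := fun s => by rw [smul_mul', hg, hg']
    have e3 : g * k' * g⁻¹ ∈ K := hn.conj_mem k' hk' g
    rw [e1, hT _ (K.mul_mem hk e3) _ e2, hT k hk g hg, hT k' hk' g' hg', hFm k hk _ e3,
      hFc g hg k' hk']
    have e4 : ⁅k, g * k' * g⁻¹⁆ * (k * (g * k' * g⁻¹))⁻¹ = k⁻¹ * (g * k'⁻¹ * g⁻¹) := by
      have h1 : ⁅k, g * k' * g⁻¹⁆ ∈ Z := c.comm k hk _ e3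
      rw [← hZc _ h1 (k * (g * k' * g⁻¹))⁻¹]
      have h2 := hZc _ h1 (k⁻¹ * (g * k' * g⁻¹)⁻¹)
      rw [commutatorElement_def] at h1 h2 ⊢
      have h3 : (k * (g * k' * g⁻¹))⁻¹ * (k * (g * k' * g⁻¹) * k⁻¹ * (g * k' * g⁻¹)⁻¹) =
          k⁻¹ * (g * k' * g⁻¹)⁻¹ := by group
      rw [h3]
      group
    have e5 := hZc _ (hFZ k' hk')
    calc F k * F k' * ⁅k, g * k' * g⁻¹⁆ * (k * (g * k' * g⁻¹))⁻¹ * (g * g')
        = F k * F k' * (⁅k, g * k' * g⁻¹⁆ * (k * (g * k' * g⁻¹))⁻¹) * (g * g') := by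
          simp only [mul_assoc]
      _ = F k * (F k' * (k⁻¹ * g)) * k'⁻¹ * g' := by rw [e4]; group
      _ = F k * ((k⁻¹ * g) * F k') * k'⁻¹ * g' := by rw [e5]
      _ = F k * k⁻¹ * g * (F k' * k'⁻¹ * g') := by group
  have hinv : ∀ g, T (T g) = g := by
    intro a
    obtain ⟨k, hk, g, hg, rfl⟩ := c.gen a
    have h1 := hFZ k hk
    rw [hT k hk g hg, hT _ (K.mul_mem (c.le h1) (K.inv_mem hk)) g hg,
      hFm _ (c.le h1) _ (K.inv_mem hk), hF2 _ h1, hFinv k hk,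
      commutatorElement_eq_one_iff_mul_comm.2 (hZc _ h1 _).symm, mul_one]
    have e5 := hZc _ h1
    calc F k * F k * (F k)⁻¹ * (F k * k⁻¹)⁻¹ * g = (F k * k) * (F k)⁻¹ * g := by group
      _ = (k * F k) * (F k)⁻¹ * g := by rw [e5]
      _ = k * g := by group
  let τ : MulAut G :=
    { toFun := T
      invFun := T
      left_inv := hinv
      right_inv := hinv
      map_mul' := hmul }
  have hτ : ∀ g, τ g = T g := fun g => rfl
  refine ⟨τ, hT, hinv, ?_, ?_⟩
  · intro a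
    constructor
    · obtain ⟨k, hk, g, hg, rfl⟩ := c.gen a
      intro h1 s
      rw [hτ, hT k hk g hg] at h1
      have h2 : F k = k * k := by
        have := mul_right_cancel h1
        rwa [mul_inv_eq_iff_eq_mul] at this
      have h3 : s • k * s • k = k * k := by
        rw [← smul_mul', ← h2]
        exact c.fix _ (hFZ k hk) s
      have h4 : s • k = k := by
        obtain ⟨m, hm⟩ := c.odd
        have e1 : ∀ x : G, x ^ (2 * (m + 1)) = x := by
          intro x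
          have h1 : 2 * (m + 1) = Nat.card G + 1 := by rw [hm]; ring
          rw [h1, pow_succ, pow_card_eq_one', one_mul]
        have e2 : (s • k) ^ (2 * (m + 1)) = k ^ (2 * (m + 1)) := by
          rw [pow_mul, pow_mul, pow_two, pow_two, h3]
        rwa [e1, e1] at e2
      rw [smul_mul', h4, hg]
    · intro h1
      rw [hτ, ← one_mul a, hT 1 K.one_mem a h1, hF1, inv_one, one_mul]
  · intro s a
    obtain ⟨k, hk, g, hg, rfl⟩ := c.gen a
    rw [hτ, hτ, smul_mul', hg s, hT _ (c.smul_mem s k hk) g hg, hT k hk g hg, hFs k hk, smul_mul',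
      smul_mul', smul_inv', hg s, c.fix _ (hFZ k hk)]

end Cfsg.Agent.H596.OddConf
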